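import Cfsg.Agent.Chev.WeylPoincare
import Cfsg.Prelude.Def_ChevB2

/-! Orbit tables for the Poincaré polynomial of the Weyl group of type B2. -/

set_option autoImplicit false
set_option maxRecDepth 100000
set_option linter.style.longLine false

namespace CfsgLib.Chev.PoincareB2

open CfsgLib.Chev Cfsg.Lie

/-- Cartan integers. -/
def cart : List (List ℤ) := [[2, -2], [-1, 2]]

/-- Orbit 0. -/
def orb0 : List (List ℤ × ℕ) := [([1, 0], 0),
  ([-1, 2], 1)]

theorem orb0_ok : orbOK 2 cart 0 orb0 = true := by decide +kernel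

/-- Orbit 1. -/
def orb1 : List (List ℤ × ℕ) := [([0, 1], 0),
  ([1, -1], 1),
  ([-1, 1], 2),
  ([0, -1], 3)]

theorem orb1_ok : orbOK 2 cart 1 orb1 = true := by decide +kernel

/-- All orbits. -/
def orbs : List (List (List ℤ × ℕ)) := [orb0, orb1]

/-- The degrees. -/
def degs : List ℕ := [2, 4]

theorem poly_ok : polyOK 2 orbs degs = true := by decide +kernel

theorem cart_ok : CartanOK chevB2 cart := by
  unfold CartanOK
  decide +kernel

theorem rank_eq : chevB2.rank = 2 := by decide +kernel

theorem poincare (S : Sys chevB2) (x : ℤ) :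
    (x - 1) ^ 2 * ∑ w ∈ S.wfin chevB2.rank, x ^ Sys.wlen w = (degs.map fun d => x ^ d - 1).prod := by
  have h := S.poincare_weyl cart_ok (orbs := orbs) (by rw [rank_eq]; rfl) (fun k hk => by
    rw [rank_eq] at hk ⊢
    match k, hk with
    | 0, _ => exact orb0_ok
    | 1, _ => exact orb1_ok
    | k + 2, hk => exact absurd hk (Nat.not_lt.2 (Nat.le_add_left 2 k)))
    (degs := degs) (by rw [rank_eq]; exact poly_ok) x
  have hpow : (x - 1) ^ 2 = (x - 1) ^ chevB2.rank := by rw [rank_eq]
  rw [hpow]
  exact h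

end CfsgLib.Chev.PoincareB2
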