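import Cfsg.Agent.Chev.Cover.Cert
import Cfsg.Agent.Chev.FieldMap
import Cfsg.Agent.Chev.GroupOrder
import Cfsg.Agent.Chev.PoincareB2

/-!
# `B₂(2) ≅ S₆`
-/

set_option autoImplicit false
set_option maxRecDepth 100000

namespace CfsgLib.Chev.B2Two

open Cfsg.Lie Equiv

universe u

/-- The images of the root elements at `t = 1`. -/
def val : Fin 8 → Equiv.Perm (Fin 6) :=
  ![(swap 0 2) * (swap 1 5) * (swap 3 4), swap 0 2, swap 3 4, (swap 0 2) * (swap 1 3) * (swap 4 5),
    (swap 0 1) * (swap 2 5) * (swap 3 4), swap 4 5, swap 0 1, (swap 0 1) * (swap 2 3) * (swap 4 5)]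

/-- The images of all root elements. -/
def valT (r : ℕ) (t : ZMod 2) : Equiv.Perm (Fin 6) :=
  if h : r < 8 then (if t = 0 then 1 else val ⟨r, h⟩) else 1

theorem rel_add : ∀ r < chevB2.nroots, ∀ t v : ZMod 2, valT r t * valT r v = valT r (t + v) := by
  decide +kernel

set_option synthInstance.maxSize 2000 in
set_option synthInstance.maxHeartbeats 200000 in
theorem rel_comm : ∀ r < chevB2.nroots, ∀ s < chevB2.nroots, ∀ t v : ZMod 2,
    s ≠ r → s ≠ chevB2.neg r → (valT s v)⁻¹ * (valT r t)⁻¹ * valT s v * valT r t =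
      ((chevB2.commWord (ZMod 2) r s t v).map fun p => valT p.1 p.2).prod := by
  decide +kernel

theorem rel_h : ∀ r < chevB2.nroots, ∀ t v : ZMod 2, t ≠ 0 → v ≠ 0 →
    ((chevB2.hWord r t).map fun p => valT p.1 p.2).prod *
        ((chevB2.hWord r v).map fun p => valT p.1 p.2).prod =
      ((chevB2.hWord r (t * v)).map fun p => valT p.1 p.2).prod := by
  decide +kernel

theorem adj : ∀ i : Fin 5, swap i.castSucc i.succ =
    (([[6], [1, 6, 1], [3, 6, 3], [2], [5]] : List (List ℕ)).getD i []).foldr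
      (fun r g => valT r 1 * g) 1 := by
  decide +kernel

/-- The homomorphism of the presented group onto `S₆`. -/
theorem exists_surj : ∃ ψ : chevB2.SteinbergGroup (ZMod 2) →* Equiv.Perm (Fin 6),
    Function.Surjective ψ := by
  let val' : Fin chevB2.nroots × ZMod 2 → Equiv.Perm (Fin 6) := fun p => valT p.1 p.2
  have hX : ∀ (r : ℕ) (t : ZMod 2), FreeGroup.lift val' (chevB2.stX r t) = valT r t := by
    intro r t
    by_cases hr : r < chevB2.nroots
    · simp [ChevalleyDatum.stX, hr, val']
    · rw [ChevalleyDatum.stX, dif_neg hr, map_one, valT, dif_neg]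
      rwa [show chevB2.nroots = 8 from rfl] at hr
  have hW : ∀ l : List (ℕ × ZMod 2),
      FreeGroup.lift val' (chevB2.stWord l) = (l.map fun p => valT p.1 p.2).prod := by
    intro l
    rw [ChevalleyDatum.stWord, map_list_prod, List.map_map]
    congr 1
    exact List.map_congr_left fun p _ => hX p.1 p.2
  have hrel : ∀ g ∈ chevB2.steinbergRels (ZMod 2), FreeGroup.lift val' g = 1 := by
    intro g hg
    rcases hg with (⟨r, t, v, hr, rfl⟩ | ⟨r, s, t, v, hr, hs, h1, h2, rfl⟩) |
      ⟨r, t, v, hr, ht, hv, rfl⟩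
    · rw [map_mul, map_mul, map_inv, hX, hX, hX, rel_add r hr, mul_inv_cancel]
    · rw [map_mul, map_mul, map_mul, map_mul, map_inv, map_inv, map_inv, hX, hX, hW,
        rel_comm r hr s hs t v h1 h2, mul_inv_cancel]
    · rw [map_mul, map_mul, map_inv, ChevalleyDatum.stH, ChevalleyDatum.stH, ChevalleyDatum.stH,
        hW, hW, hW, rel_h r hr t v ht hv, mul_inv_cancel]
  refine ⟨PresentedGroup.toGroup hrel, MonoidHom.range_eq_top.1 ?_⟩
  rw [eq_top_iff]
  intro x hx0
  clear hx0
  have hx : x ∈ Submonoid.closure (Set.range fun i : Fin 5 => swap i.castSucc i.succ) := by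
    rw [Equiv.Perm.mclosure_swap_castSucc_succ]; trivial
  induction hx using Submonoid.closure_induction with
  | mem y hy =>
    obtain ⟨i, rfl⟩ := hy
    show swap i.castSucc i.succ ∈ _
    rw [adj i]
    generalize (([[6], [1, 6, 1], [3, 6, 3], [2], [5]] : List (List ℕ)).getD i []) = l
    induction l with
    | nil => exact one_mem _
    | cons r l ih =>
      exact mul_mem ⟨PresentedGroup.mk _ (chevB2.stX r 1), hX r 1⟩ ih
  | one => exact one_mem _
  | mul a b _ _ ha hb => exact mul_mem ha hb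

/-- `B₂(F) ≅ S₆` for the field with two elements. -/
theorem equiv_perm {F : Type u} [Field F] [Fintype F] (hF : Fintype.card F = 2) :
    Nonempty (chevB2.group F ≃* Equiv.Perm (Fin 6)) := by
  haveI := Fact.mk Nat.prime_two
  let e : ZMod 2 ≃+* F := ZMod.ringEquivOfPrime F Nat.prime_two hF
  let e₁ : chevB2.group (ZMod 2) ≃* chevB2.group F :=
    ((chevB2.group (ZMod 2)).equivMapOfInjective _ (glMap_injective chevB2 (e : ZMod 2 →+* F))).trans
      (MulEquiv.subgroupCongr (map_group_eq chevB2 (e : ZMod 2 →+* F) e.surjective))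
  let Y := sysB2.{0}.stLift (ZMod 2)
  obtain ⟨φ, -, hφ⟩ := Y.ker_subset_param genOK_B2 sysB2.{0}.stLift_R3
  have hinj : Function.Injective Y.θ := by
    rw [← MonoidHom.ker_eq_bot_iff, Y.θ_ker, Subgroup.eq_bot_iff_forall]
    intro z hz
    obtain ⟨c, -, rfl⟩ := (hφ z).1 hz
    rw [show c = 1 from funext fun i => Subsingleton.elim _ _, map_one]
  let e₂ : chevB2.SteinbergGroup (ZMod 2) ≃* chevB2.group (ZMod 2) :=
    MulEquiv.ofBijective Y.θ ⟨hinj, Y.θ_surjective⟩
  obtain ⟨ψ, hψ⟩ := exists_surj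
  let f : chevB2.group F →* Equiv.Perm (Fin 6) :=
    ψ.comp (e₁.symm.trans e₂.symm).toMonoidHom
  have hf : Function.Surjective f := hψ.comp (e₁.symm.trans e₂.symm).surjective
  have hcard : Nat.card (chevB2.group F) = 720 := by
    have h := sysB2.card_group_formula (F := F) torB2 (degs := PoincareB2.degs)
      (by simpa [PoincareB2.rank_eq] using PoincareB2.poincare sysB2)
    have h2 : Nat.card F = 2 := by rw [Nat.card_eq_fintype_card, hF]
    simp only [h2, show (2 : ℕ) - 1 = 1 from rfl, Nat.gcd_one_left, Finset.prod_const_one,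
      one_mul] at h
    rw [h, show chevB2.nroots / 2 = 4 from rfl]
    rfl
  haveI : Finite (chevB2.group F) := Nat.finite_of_card_ne_zero (by rw [hcard]; norm_num)
  have hc : Nat.card (chevB2.group F) = Nat.card (Equiv.Perm (Fin 6)) := by
    rw [hcard, Nat.card_perm, Nat.card_eq_fintype_card, Fintype.card_fin]
    rfl
  exact ⟨MulEquiv.ofBijective f ((Nat.bijective_iff_surjective_and_card f).2 ⟨hf, hc⟩)⟩

end CfsgLib.Chev.B2Two
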