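import Cfsg.Agent.Chev.CoxeterIso

/-!
# The centre of the Weyl group

A central element maps every fundamental root to itself or its negative, with constant sign on a
connected diagram; hence the centre is trivial or consists of `1` and `-1`.
-/

set_option autoImplicit false

namespace CfsgLib.Chev

open Cfsg.Lie CfsgLib.BNPair

universe u

/-- A sign on the nodes which is constant on edges is constant. -/
def ConnOK (n : ℕ) (C : List (List ℤ)) : Prop :=
  ∀ c : Fin n → Bool, (∀ i j : Fin n, (C.getD i []).getD j 0 ≠ 0 → c i = c j) → ∀ i j : Fin n, c i = c j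

/-- The word acts as `-1`. -/
def negOK (n : ℕ) (C : List (List ℤ)) (L : List ℕ) : Bool :=
  (List.range n).all fun a => decide (Sys.wordL n C L (eK n a) = (eK n a).map fun x => -x)

/-- A reflection on lists of values of functionals. -/
def reflF (n : ℕ) (C : List (List ℤ)) (q : ℕ) (f : List ℤ) : List ℤ :=
  (List.range n).map fun a => f.getD a 0 - (C.getD q []).getD a 0 * f.getD q 0

/-- A nonempty set of functionals, stable under the reflections, without opposite elements. -/
def orbitFOK (n : ℕ) (C : List (List ℤ)) (O : List (List ℤ)) : Bool :=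
  !O.isEmpty && O.all fun f => decide (f.length = n) && !O.contains (f.map fun x => -x) &&
    (List.range n).all fun q => O.contains (reflF n C q f)

namespace Sys

variable {D : ChevalleyDatum} (S : Sys.{0} D)

include S

theorem Rl_single_self (i : Fin D.rank) :
    S.Rl i (Pi.single i 1) = -(Pi.single i (1 : ℤ) : Fin D.rank → ℤ) := by
  rw [S.Rl_apply i.2, S.rho_single, S.cartan_self i i.2, Fin.eta]
  funext j
  simp
  ring

theorem Lw_eq_of_sr {L L' : List ℕ} (h : ∀ a, S.wprod L (S.sr a) = S.wprod L' (S.sr a)) :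
    S.wprod L = S.wprod L' := by
  have hid : S.Lw L = S.Lw L' := by
    refine LinearMap.pi_ext' fun a => LinearMap.ext_ring ?_
    simp only [LinearMap.coe_comp, Function.comp_apply, LinearMap.coe_single]
    rw [← S.rv_sr, ← S.rv_wprod, ← S.rv_wprod, h]
  exact Equiv.ext fun s => S.rv_injective (by rw [S.rv_wprod, S.rv_wprod, hid])

/-- A word acting as `-1` commutes with every fundamental reflection. -/
theorem refl_comm_of_neg {L : List ℕ} (h : S.Lw L = -1) (q : ℕ) :
    S.refl q * S.wprod L = S.wprod L * S.refl q := by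
  refine Equiv.ext fun s => S.rv_injective ?_
  rw [Equiv.Perm.mul_apply, Equiv.Perm.mul_apply, S.rv_refl, S.rv_wprod, S.rv_wprod, S.rv_refl, h]
  simp

theorem Lw_eq_neg {C : List (List ℤ)} (hC : CartanOK D C) {L : List ℕ} (hL : ∀ q ∈ L, q < D.rank)
    (h : negOK D.rank C L = true) : S.Lw L = -1 := by
  simp only [negOK, List.all_eq_true, List.mem_range, decide_eq_true_eq] at h
  refine LinearMap.pi_ext' fun a => LinearMap.ext_ring ?_
  simp only [LinearMap.coe_comp, Function.comp_apply, LinearMap.coe_single, LinearMap.neg_apply,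
    Module.End.one_apply]
  apply List.ofFn_injective
  have hb : List.ofFn (Pi.single a (1 : ℤ) : Fin D.rank → ℤ) = eK D.rank a := by
    refine List.ext_getElem (by simp [eK]) fun m h1 h2 => ?_
    rw [List.length_ofFn] at h1
    simp only [eK, List.getElem_ofFn, List.getElem_map, List.getElem_range, Pi.single_apply]
    exact if_congr ⟨fun e => congrArg Fin.val e, fun e => Fin.ext e⟩ rfl rfl
  rw [S.toList_Lw hC hL, hb, h a a.2, ← hb, List.map_ofFn]
  rfl

/-- A Weyl group element commuting with all reflections is `1` or acts as `-1`. -/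
theorem central_dichotomy {C : List (List ℤ)} (hC : CartanOK D C) (hconn : ConnOK D.rank C)
    {L : List ℕ} (hcomm : ∀ i : Fin D.rank, S.refl i * S.wprod L = S.wprod L * S.refl i) :
    S.wprod L = 1 ∨ S.Lw L = -1 := by
  classical
  set w := S.wprod L with hw
  have hval : ∀ i : Fin D.rank, w (S.sr i) = S.sr i ∨ w (S.sr i) = S.refl i (S.sr i) := by
    intro i
    set t := w (S.sr i) with ht
    have hrt : S.refl i t = w (S.refl i (S.sr i)) :=
      congrArg (fun p : Equiv.Perm (Fin D.nroots) => p (S.sr i)) (hcomm i)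
    have hl : S.lev (S.refl i t : Fin D.nroots) = -S.lev t := by
      rw [← S.lv_rv, ← S.lv_rv, hrt, hw, S.rv_wprod, S.rv_refl, S.rv_sr, S.Rl_single_self,
        map_neg, map_neg, ht, hw, S.rv_wprod, S.rv_sr]
    by_cases hp : S.Pos t
    · refine Or.inl (S.eq_sr_of_refl_neg i hp ?_)
      rw [S.lev_pos_iff] at hp ⊢
      omega
    · have hp' : S.Pos (S.refl i t) := by
        rw [S.not_pos_iff] at hp
        rw [S.lev_pos_iff]
        omega
      have he := S.eq_sr_of_refl_neg i hp' (by rw [S.refl_refl]; exact hp)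
      exact Or.inr (by rw [← he, S.refl_refl])
  let c : Fin D.rank → Bool := fun i => decide (w (S.sr i) = S.sr i)
  have hLe : ∀ i, S.Lw L (Pi.single i 1) =
      (if c i then (1 : ℤ) else -1) • (Pi.single i (1 : ℤ) : Fin D.rank → ℤ) := by
    intro i
    rw [← S.rv_sr, ← S.rv_wprod, ← hw]
    by_cases h : w (S.sr i) = S.sr i
    · simp [c, h]
    · rw [(hval i).resolve_left h, S.rv_refl, S.rv_sr, S.Rl_single_self]
      simp [c, h]
  have hedge : ∀ i j : Fin D.rank, (C.getD i []).getD j 0 ≠ 0 → c i = c j := by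
    intro i j hij
    by_cases hne : i = j
    · rw [hne]
    rw [← hC i i.2 j j.2] at hij
    have h : S.Rl i (S.Lw L (Pi.single j 1)) = S.Lw L (S.Rl i (Pi.single j 1)) := by
      rw [← S.rv_sr, ← S.rv_wprod, ← S.rv_refl, ← S.rv_refl, ← S.rv_wprod]
      exact congrArg (fun p : Equiv.Perm (Fin D.nroots) => S.rv (p (S.sr j))) (hcomm i)
    rw [hLe, map_smul, S.Rl_apply i.2, S.rho_single, Fin.eta, map_sub, map_smul, hLe, hLe] at h
    have h' := congrFun h i
    simp only [smul_sub, Pi.sub_apply, Pi.smul_apply, Pi.single_eq_same,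
      Pi.single_eq_of_ne hne, smul_eq_mul, mul_one, mul_zero, zero_sub] at h'
    revert h'
    cases c i <;> cases c j <;> simp <;> omega
  have hconst := hconn c hedge
  rcases Nat.eq_zero_or_pos D.rank with h0 | h0
  · exact Or.inl (S.Lw_eq_of_sr (L' := []) fun a => absurd a.2 (by omega))
  by_cases h1 : c ⟨0, h0⟩
  · refine Or.inl (S.Lw_eq_of_sr (L' := []) fun a => ?_)
    have : c a = true := (hconst a _).trans h1
    simpa [c, ← hw] using this
  · refine Or.inr (LinearMap.pi_ext' fun a => LinearMap.ext_ring ?_)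
    simp only [LinearMap.coe_comp, Function.comp_apply, LinearMap.coe_single, LinearMap.neg_apply,
      Module.End.one_apply, hLe]
    rw [hconst a ⟨0, h0⟩, if_neg h1, neg_one_smul]

/-- The centre is `{1, -1}` when some power of the product of the generators acts as `-1`. -/
theorem center_coxeter_two {n : ℕ} (hn : D.rank = n) (h0 : 0 < n) {C : List (List ℤ)} (hC : CartanOK D C)
    (M : CoxeterMatrix (Fin n)) {Mf : ℕ → ℕ → ℕ} (hMf : ∀ i j : Fin n, Mf i j = M i j)
    (hM : coxOK D.rank C Mf = true) (hconn : ConnOK n C) {K : ℕ}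
    (hK : negOK n C (coxWord n K) = true) :
    Nat.card (Subgroup.center M.Group) = 2 ∧
      Subgroup.center M.Group ≤ Subgroup.zpowers ((List.finRange n).map M.simple).prod := by
  obtain ⟨-, ψ, hinj, -, hψ, hrange⟩ := S.exists_coxeter_perm ℚ hn hC M hMf hM
  subst hn
  have hwd : ∀ k, S.wprod (coxWord D.rank k) = (S.wprod (List.range D.rank)) ^ k := by
    intro k
    induction k with
    | zero => rfl
    | succ k ih => rw [coxWord, List.replicate_succ, List.flatten_cons, wprod_append, ← coxWord, ih, pow_succ']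
  have hlt : ∀ k, ∀ q ∈ coxWord D.rank k, q < D.rank := by
    intro k q hq
    obtain ⟨l, hl, hql⟩ := List.mem_flatten.1 hq
    rw [(List.mem_replicate.1 hl).2] at hql
    exact List.mem_range.1 hql
  have e : ψ ((List.finRange D.rank).map M.simple).prod = S.wprod (List.range D.rank) := by
    rw [map_list_prod, List.map_map, wprod]
    congr 1
    rw [← List.map_coe_finRange_eq_range, List.map_map]
    exact List.map_congr_left fun i _ => hψ i
  set d := ((List.finRange D.rank).map M.simple).prod ^ K with hd
  have hdψ : ψ d = S.wprod (coxWord D.rank K) := by rw [hd, map_pow, e, hwd]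
  have hneg : S.Lw (coxWord D.rank K) = -1 := S.Lw_eq_neg hC (hlt K) hK
  have hdc : d ∈ Subgroup.center M.Group := by
    have hgen : ∀ i, M.simple i ∈ Subgroup.centralizer ({d} : Set M.Group) := fun i => by
      rw [Subgroup.mem_centralizer_singleton_iff]
      apply hinj
      rw [map_mul, map_mul, hdψ, hψ, S.refl_comm_of_neg hneg]
    have htop : Subgroup.centralizer ({d} : Set M.Group) = ⊤ := by
      rw [eq_top_iff, ← M.toCoxeterSystem.subgroup_closure_range_simple, Subgroup.closure_le]
      rintro _ ⟨i, rfl⟩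
      exact hgen i
    exact Subgroup.mem_center_iff.2 fun g =>
      Subgroup.mem_centralizer_singleton_iff.1 (htop ▸ Subgroup.mem_top g)
  have hne : d ≠ 1 := by
    intro h
    rw [h, map_one] at hdψ
    have h1 := S.rv_wprod (coxWord D.rank K) (S.sr ⟨0, h0⟩)
    rw [← hdψ, Equiv.Perm.one_apply, hneg, S.rv_sr, LinearMap.neg_apply, Module.End.one_apply] at h1
    have := congrFun h1 ⟨0, h0⟩
    simp at this
  have hall : ∀ z ∈ Subgroup.center M.Group, z = 1 ∨ z = d := by
    intro z hz
    obtain ⟨L, hL, hLz⟩ := S.exists_wprod (show ψ z ∈ S.weyl from hrange ▸ ⟨z, rfl⟩)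
    have hcomm : ∀ i : Fin D.rank, S.refl i * S.wprod L = S.wprod L * S.refl i := fun i => by
      rw [← hψ i, hLz, ← map_mul, ← map_mul, Subgroup.mem_center_iff.1 hz]
    rcases S.central_dichotomy hC hconn hcomm with h | h
    · exact Or.inl (hinj (by rw [← hLz, h, map_one]))
    · refine Or.inr (hinj ?_)
      rw [← hLz, hdψ]
      exact S.Lw_eq_of_sr fun a => S.rv_injective (by rw [S.rv_wprod, S.rv_wprod, h, hneg])
  constructor
  · have : (Subgroup.center M.Group : Set M.Group) = {1, d} := by
      ext z
      refine ⟨fun hz => hall z hz, ?_⟩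
      rintro (rfl | rfl)
      · exact one_mem _
      · exact hdc
    rw [show Nat.card (Subgroup.center M.Group) = (Subgroup.center M.Group : Set M.Group).ncard from
      Nat.card_coe_set_eq _, this, Set.ncard_pair hne.symm]
  · intro z hz
    rcases hall z hz with rfl | rfl
    · exact one_mem _
    · exact Subgroup.pow_mem _ (Subgroup.mem_zpowers _) K

/-- No element acts as `-1` when an orbit of functionals has no opposite elements. -/
theorem center_coxeter_one {n : ℕ} (hn : D.rank = n) {C : List (List ℤ)} (hC : CartanOK D C)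
    (M : CoxeterMatrix (Fin n)) {Mf : ℕ → ℕ → ℕ} (hMf : ∀ i j : Fin n, Mf i j = M i j)
    (hM : coxOK D.rank C Mf = true) (hconn : ConnOK n C) {O : List (List ℤ)}
    (hO : orbitFOK n C O = true) : Subgroup.center M.Group = ⊥ := by
  obtain ⟨-, ψ, hinj, -, hψ, hrange⟩ := S.exists_coxeter_perm ℚ hn hC M hMf hM
  subst hn
  rw [Subgroup.eq_bot_iff_forall]
  intro z hz
  obtain ⟨L, hL, hLz⟩ := S.exists_wprod (show ψ z ∈ S.weyl from hrange ▸ ⟨z, rfl⟩)
  have hcomm : ∀ i : Fin D.rank, S.refl i * S.wprod L = S.wprod L * S.refl i := fun i => by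
    rw [← hψ i, hLz, ← map_mul, ← map_mul, Subgroup.mem_center_iff.1 hz]
  rcases S.central_dichotomy hC hconn hcomm with h | h
  · exact hinj (by rw [← hLz, h, map_one])
  exfalso
  simp only [orbitFOK, List.all_eq_true, List.mem_range, Bool.and_eq_true, decide_eq_true_eq,
    Bool.not_eq_true', List.contains_iff_mem, ← Bool.not_eq_true, List.isEmpty_iff] at hO
  obtain ⟨hne, hO⟩ := hO
  have key : ∀ L : List ℕ, (∀ q ∈ L, q < D.rank) → ∀ f ∈ O, ∃ g ∈ O, ∀ x : Fin D.rank → ℤ,
      ∑ a : Fin D.rank, f.getD a 0 * S.Lw L x a = ∑ a : Fin D.rank, g.getD a 0 * x a := by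
    intro L
    induction L with
    | nil => exact fun _ f hf => ⟨f, hf, fun x => rfl⟩
    | cons q L ih =>
      intro hL f hf
      have hq := hL q (List.mem_cons_self ..)
      obtain ⟨g, hg, hgx⟩ := ih (fun y hy => hL y (List.mem_cons_of_mem _ hy))
        (reflF D.rank C q f) ((hO f hf).2 q hq)
      refine ⟨g, hg, fun x => ?_⟩
      rw [← hgx x, S.Lw_cons, Module.End.mul_apply, S.Rl_apply hq]
      set y := S.Lw L x
      have hr : ∀ a : Fin D.rank, (reflF D.rank C q f).getD a 0 =
          f.getD a 0 - D.cartan q (D.simple a) * f.getD q 0 := fun a => by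
        rw [List.getD_eq_getElem _ _ (by simp [reflF])]
        simp only [reflF, List.getElem_map, List.getElem_range]
        rw [← hC q hq a a.2]
      simp only [hr, Pi.sub_apply, Pi.smul_apply, smul_eq_mul, mul_sub, sub_mul,
        Finset.sum_sub_distrib, Pi.single_apply, mul_ite, mul_one, mul_zero,
        Finset.sum_ite_eq', Finset.mem_univ, if_true]
      congr 1
      rw [S.rho_apply, Finset.mul_sum]
      exact Finset.sum_congr rfl fun a _ => by ring
  obtain ⟨f, hf⟩ := List.exists_mem_of_ne_nil O hne
  obtain ⟨g, hg, hgx⟩ := key L hL f hf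
  refine (hO f hf).1.2 ?_
  have e : g = f.map fun x => -x := by
    refine List.ext_getElem (by simp [(hO g hg).1.1, (hO f hf).1.1]) fun m h1 h2 => ?_
    have hm : m < D.rank := by rw [← (hO g hg).1.1]; exact h1
    have := hgx (Pi.single ⟨m, hm⟩ 1)
    rw [h] at this
    simp only [LinearMap.neg_apply, Module.End.one_apply, Pi.neg_apply, Pi.single_apply, mul_neg,
      mul_ite, mul_one, mul_zero, Finset.sum_neg_distrib, Finset.sum_ite_eq', Finset.mem_univ,
      if_true] at this
    rw [List.getD_eq_getElem _ _ h1, List.getD_eq_getElem _ _ (by rw [(hO f hf).1.1]; exact hm)] at this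
    rw [List.getElem_map]
    exact this.symm
  exact e ▸ hg

end Sys

end CfsgLib.Chev
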