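import Cfsg.Agent.BNPair.Coxeter
import Cfsg.Agent.Chev.BN
import Cfsg.Agent.Chev.WeylCombi
import Cfsg.Agent.Chev.WeylPoincare

/-!
# `N / H` is the Coxeter group of the diagram

The orders of the products of two fundamental reflections are computed on coefficient vectors.
-/

set_option autoImplicit false

namespace CfsgLib.Chev

open Cfsg.Lie CfsgLib.BNPair

universe u

/-- A fundamental reflection on coefficient lists. -/
def reflL (n : ℕ) (C : List (List ℤ)) (q : ℕ) (x : List ℤ) : List ℤ :=
  (List.range n).map fun i => if i = q then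
    x.getD i 0 - ((List.range n).map fun j => (C.getD q []).getD j 0 * x.getD j 0).sum
  else x.getD i 0

/-- Iterates of a product of two reflections. -/
def iterL (n : ℕ) (C : List (List ℤ)) (i j : ℕ) : ℕ → List ℤ → List ℤ
  | 0, x => x
  | k + 1, x => reflL n C i (reflL n C j (iterL n C i j k x))

/-- The `k`-th power of the product fixes all fundamental roots. -/
def fixL (n : ℕ) (C : List (List ℤ)) (i j k : ℕ) : Bool :=
  (List.range n).all fun a => decide (iterL n C i j k (eK n a) = eK n a)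

/-- The table of orders is correct. -/
def coxOK (n : ℕ) (C : List (List ℤ)) (M : ℕ → ℕ → ℕ) : Bool :=
  (List.range n).all fun i => (List.range n).all fun j =>
    decide (0 < M i j) && fixL n C i j (M i j) &&
      (List.range (M i j)).all fun k => decide (k = 0) || !fixL n C i j k

namespace Sys

variable {D : ChevalleyDatum} (S : Sys.{u} D) {F : Type u} [Field F]

variable (F) in
/-- The permutation attached to an element of `N`. -/
noncomputable def permHom : (S.bnPair F).N →* Equiv.Perm (Fin D.nroots) where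
  toFun g := (S.exists_acts (Subgroup.mem_subgroupOf.1 g.2)).choose
  map_one' := S.acts_unique (S.exists_acts (Subgroup.mem_subgroupOf.1
    (one_mem (S.bnPair F).N))).choose_spec.2 (S.acts_diag (one_mem _))
  map_mul' g h := S.acts_unique (S.exists_acts (Subgroup.mem_subgroupOf.1 (g * h).2)).choose_spec.2
    (S.acts_mul (S.exists_acts (Subgroup.mem_subgroupOf.1 g.2)).choose_spec.2
      (S.exists_acts (Subgroup.mem_subgroupOf.1 h.2)).choose_spec.2)

include S

theorem permHom_acts (g : (S.bnPair F).N) :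
    S.Acts ((g : D.group F) : GL D.Idx F) (S.permHom F g) :=
  (S.exists_acts (Subgroup.mem_subgroupOf.1 g.2)).choose_spec.2

theorem permHom_nG (i : Fin D.rank) (h : S.nG F i ∈ (S.bnPair F).N) :
    S.permHom F ⟨S.nG F i, h⟩ = S.refl i :=
  S.acts_unique (S.permHom_acts _) (S.acts_nU i.2)

theorem mem_B_of_permHom {g : (S.bnPair F).N} (h : S.permHom F g = 1) :
    (g : D.group F) ∈ (S.bnPair F).B := by
  refine Subgroup.mem_subgroupOf.2 (Subgroup.mem_sup_right ?_)
  exact S.mem_diag_of_pos (Subgroup.mem_subgroupOf.1 g.2) (S.permHom_acts g) fun r hr => by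
    rw [h]; exact hr

theorem permHom_of_mem_B {g : (S.bnPair F).N} (h : (g : D.group F) ∈ (S.bnPair F).B) :
    S.permHom F g = 1 := by
  refine S.acts_unique (S.permHom_acts g) (S.acts_diag ?_)
  rw [← S.borel_inf_mono]
  exact Subgroup.mem_inf.2 ⟨h, g.2⟩

theorem toList_refl {C : List (List ℤ)} (hC : CartanOK D C) {q : ℕ} (hq : q < D.rank)
    (x : Fin D.rank → ℤ) : List.ofFn (S.Rl q x) = reflL D.rank C q (List.ofFn x) := by
  have hget : ∀ (j : Fin D.rank), (List.ofFn x).getD (j : ℕ) 0 = x j := fun j => by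
    rw [List.getD_eq_getElem?_getD, List.getElem?_eq_getElem (by simp), List.getElem_ofFn]
    rfl
  have hsum : ((List.range D.rank).map fun j => (C.getD q []).getD j 0 * (List.ofFn x).getD j 0).sum =
      S.rho q x := by
    rw [rho_apply, ← List.sum_toFinset _ List.nodup_range, List.toFinset_range, Finset.sum_range]
    exact Finset.sum_congr rfl fun j _ => by rw [hget, hC q hq j j.2]
  refine List.ext_getElem (by simp [reflL]) fun i h1 h2 => ?_
  rw [List.length_ofFn] at h1
  simp only [reflL, List.getElem_ofFn, List.getElem_map, List.getElem_range]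
  rw [hsum, hget ⟨i, h1⟩]
  show S.Rl q x ⟨i, h1⟩ = _
  rw [S.Rl_apply hq, Pi.sub_apply, Pi.smul_apply]
  by_cases h : i = q
  · subst h; simp
  · rw [if_neg h, Pi.single_eq_of_ne (fun e => h (congrArg Fin.val e)), smul_zero, sub_zero]

theorem toList_iter {C : List (List ℤ)} (hC : CartanOK D C) (i j : Fin D.rank) (k : ℕ)
    (x : Fin D.rank → ℤ) :
    List.ofFn (((S.Rl i * S.Rl j) ^ k) x) = iterL D.rank C i j k (List.ofFn x) := by
  induction k with
  | zero => rfl
  | succ k ih =>
    rw [pow_succ', Module.End.mul_apply, Module.End.mul_apply, S.toList_refl hC i.2,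
      S.toList_refl hC j.2, ih]
    rfl

theorem rv_pow (i j : Fin D.rank) (k : ℕ) (s : Fin D.nroots) :
    S.rv (((S.refl i * S.refl j) ^ k) s) = ((S.Rl i * S.Rl j) ^ k) (S.rv s) := by
  induction k with
  | zero => rfl
  | succ k ih =>
    rw [pow_succ', pow_succ', Module.End.mul_apply, Equiv.Perm.mul_apply, Equiv.Perm.mul_apply,
      Module.End.mul_apply, rv_refl, rv_refl, ih]

theorem pow_eq_one_iff_fixL {C : List (List ℤ)} (hC : CartanOK D C) (i j : Fin D.rank) (k : ℕ) :
    (S.refl i * S.refl j) ^ k = 1 ↔ fixL D.rank C i j k = true := by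
  have hb : ∀ a : Fin D.rank, List.ofFn (Pi.single a (1 : ℤ) : Fin D.rank → ℤ) = eK D.rank a := by
    intro a
    refine List.ext_getElem (by simp [eK]) fun m h1 h2 => ?_
    rw [List.length_ofFn] at h1
    simp only [eK, List.getElem_ofFn, List.getElem_map, List.getElem_range, Pi.single_apply]
    exact if_congr ⟨fun e => congrArg Fin.val e, fun e => Fin.ext e⟩ rfl rfl
  simp only [fixL, List.all_eq_true, List.mem_range, decide_eq_true_eq]
  constructor
  · intro h a ha
    have h1 := S.rv_pow i j k (S.sr ⟨a, ha⟩)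
    rw [h, Equiv.Perm.one_apply, rv_sr] at h1
    have h2 := S.toList_iter hC i j k (Pi.single (⟨a, ha⟩ : Fin D.rank) 1)
    rw [← h1, hb] at h2
    exact h2.symm
  · intro h
    refine Equiv.ext fun s => S.rv_injective ?_
    rw [Equiv.Perm.one_apply, S.rv_pow]
    have hid : (S.Rl i * S.Rl j) ^ k = 1 := by
      refine LinearMap.pi_ext' fun a => LinearMap.ext_ring ?_
      simp only [LinearMap.coe_comp, Function.comp_apply, LinearMap.coe_single, Module.End.one_apply]
      apply List.ofFn_injective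
      rw [S.toList_iter hC, hb, h a a.2]
    rw [hid, Module.End.one_apply]

theorem orderOf_refl_mul {C : List (List ℤ)} (hC : CartanOK D C) {M : ℕ → ℕ → ℕ}
    (hM : coxOK D.rank C M = true) (i j : Fin D.rank) :
    orderOf (S.refl i * S.refl j) = M i j := by
  simp only [coxOK, List.all_eq_true, List.mem_range, Bool.and_eq_true, decide_eq_true_eq,
    Bool.or_eq_true, Bool.not_eq_true'] at hM
  obtain ⟨⟨h0, h1⟩, h2⟩ := hM i i.2 j j.2
  rw [orderOf_eq_iff h0]
  refine ⟨(S.pow_eq_one_iff_fixL hC i j _).2 h1, fun m hm hm0 he => ?_⟩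
  rcases h2 m hm with h | h
  · omega
  · rw [(S.pow_eq_one_iff_fixL hC i j m).1 he] at h
    exact Bool.noConfusion h

variable (F) in
/-- The Weyl group of the BN-pair is the Coxeter group and acts faithfully on the roots. -/
theorem exists_coxeter_perm {n : ℕ} (hn : D.rank = n) {C : List (List ℤ)} (hC : CartanOK D C)
    (M : CoxeterMatrix (Fin n)) {Mf : ℕ → ℕ → ℕ} (hMf : ∀ i j : Fin n, Mf i j = M i j)
    (hM : coxOK D.rank C Mf = true) :
    ∃ e : W (S.bnPair F) ≃* M.Group, ∃ ψ : M.Group →* Equiv.Perm (Fin D.nroots),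
      Function.Injective ψ ∧
      (∀ i : Fin n, ∀ h : S.nG F i ∈ (S.bnPair F).N,
        e (CfsgLib.BNPair.mk (S.bnPair F) (S.nG F i) h) = M.simple i) ∧
      (∀ i : Fin n, ψ (M.simple i) = S.refl i) ∧ ψ.range = S.weyl := by
  subst hn
  set P := S.bnPair F with hP
  let f : Fin D.rank → P.S := fun i => ⟨S.nG F i, i, i.2, S.coe_nU _ _⟩
  have hf : Function.Bijective f := by
    refine ⟨fun i j e => ?_, ?_⟩
    · have h1 : S.nU (D.simple i) (1 : F) = S.nU (D.simple j) 1 :=
        congrArg (fun x : P.S => ((x : D.group F) : GL D.Idx F)) e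
      refine Fin.ext (S.eq_of_nU_mem_diag (F := F) i.2 j.2 ?_)
      rw [h1, inv_mul_cancel]
      exact one_mem _
    · rintro ⟨g, i, hi, e⟩
      exact ⟨⟨i, hi⟩, Subtype.ext (Subtype.ext (Units.ext ((S.coe_nU _ _).trans e.symm)))⟩
  let π : W P →* Equiv.Perm (Fin D.nroots) := QuotientGroup.lift _ (S.permHom F) fun g hg =>
    S.permHom_of_mem_B (Subgroup.mem_inf.1 (Subgroup.mem_subgroupOf.1 hg)).1
  have hπ : Function.Injective π := by
    rw [← MonoidHom.ker_eq_bot_iff, Subgroup.eq_bot_iff_forall]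
    intro w hw
    obtain ⟨g, hg, rfl⟩ := exists_mk P w
    rw [mk_eq_one_iff]
    exact S.mem_B_of_permHom (g := ⟨g, hg⟩) hw
  have hπσ : ∀ i, π (σ P (f i)) = S.refl i := fun i => S.permHom_nG i (P.subset (f i).2)
  have hmat : (coxMatrix P).reindex (Equiv.ofBijective f hf).symm = M := by
    refine CoxeterMatrix.ext ?_
    ext i j
    show orderOf (σ P (f i) * σ P (f j)) = M i j
    rw [← orderOf_injective π hπ, map_mul, hπσ, hπσ, S.orderOf_refl_mul hC hM, hMf]
  obtain ⟨cs, hcs⟩ := exists_coxeterSystem P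
  subst hmat
  let cs' := cs.reindex (Equiv.ofBijective f hf).symm
  have hsimp : ∀ i, cs'.simple i = σ P (f i) := fun i => by
    rw [CoxeterSystem.reindex_simple, hcs]; rfl
  have hs : ∀ i : Fin D.rank, cs'.mulEquiv.symm (CoxeterMatrix.simple _ i) = σ P (f i) :=
    fun i => hsimp i
  refine ⟨cs'.mulEquiv, π.comp cs'.mulEquiv.symm.toMonoidHom,
    hπ.comp cs'.mulEquiv.symm.injective, fun i h => ?_, fun i => ?_, ?_⟩
  · rw [show CfsgLib.BNPair.mk P (S.nG F i) h = σ P (f i) from rfl, ← hs i,
      MulEquiv.apply_symm_apply]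
  · show π (cs'.mulEquiv.symm _) = _
    rw [hs, hπσ]
  · rw [MonoidHom.range_comp, MonoidHom.range_eq_top.2 cs'.mulEquiv.symm.surjective,
      ← MonoidHom.range_eq_map]
    apply le_antisymm
    · rintro _ ⟨w, rfl⟩
      obtain ⟨g, hg, rfl⟩ := exists_mk P w
      obtain ⟨v, hv, hva⟩ := S.exists_acts (Subgroup.mem_subgroupOf.1 hg)
      have e2 : S.permHom F ⟨g, hg⟩ = v := S.acts_unique (S.permHom_acts _) hva
      show S.permHom F ⟨g, hg⟩ ∈ S.weyl
      rw [e2]; exact hv
    · intro w hw
      obtain ⟨L, hL, rfl⟩ := S.exists_wprod hw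
      refine list_prod_mem fun x hx => ?_
      obtain ⟨q, hq, rfl⟩ := List.mem_map.1 hx
      exact ⟨σ P (f ⟨q, hL q hq⟩), hπσ _⟩

variable (F) in
/-- The map from `N` onto the Coxeter group. -/
theorem exists_coxeter_hom {n : ℕ} (hn : D.rank = n) {C : List (List ℤ)} (hC : CartanOK D C)
    (M : CoxeterMatrix (Fin n)) {Mf : ℕ → ℕ → ℕ} (hMf : ∀ i j : Fin n, Mf i j = M i j)
    (hM : coxOK D.rank C Mf = true) :
    ∃ φ : ↥(D.monomialSubgroup F) →* M.Group, Function.Surjective φ ∧
      φ.ker = (D.diagonalSubgroup F).subgroupOf (D.monomialSubgroup F) ∧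
      ∀ (i : Fin n) (g : ↥(D.monomialSubgroup F)),
        ((g : GL D.Idx F) : Matrix D.Idx D.Idx F) = D.nMat F (D.simple i) 1 → φ g = M.simple i := by
  obtain ⟨e, -, -, he, -, -⟩ := S.exists_coxeter_perm F hn hC M hMf hM
  let ι : ↥(D.monomialSubgroup F) →* (S.bnPair F).N :=
    { toFun := fun g => ⟨⟨g, S.mono_le_group g.2⟩, Subgroup.mem_subgroupOf.2 g.2⟩
      map_one' := rfl
      map_mul' := fun _ _ => rfl }
  refine ⟨(e.toMonoidHom.comp (QuotientGroup.mk' _)).comp ι, ?_, ?_, ?_⟩
  · intro x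
    obtain ⟨g, hg, hgx⟩ := exists_mk (S.bnPair F) (e.symm x)
    exact ⟨⟨g, Subgroup.mem_subgroupOf.1 hg⟩, by
      show e (CfsgLib.BNPair.mk (S.bnPair F) g hg) = x
      rw [hgx, MulEquiv.apply_symm_apply]⟩
  · ext g
    rw [MonoidHom.mem_ker, Subgroup.mem_subgroupOf]
    show e _ = 1 ↔ _
    rw [MulEquiv.map_eq_one_iff, QuotientGroup.mk'_apply, QuotientGroup.eq_one_iff,
      Subgroup.mem_subgroupOf, Subgroup.mem_inf, ← S.borel_inf_mono, Subgroup.mem_inf]
    rfl
  · intro i g hg
    have hN : S.nG F i ∈ (S.bnPair F).N :=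
      (S.bnPair F).subset ⟨i, lt_of_lt_of_eq i.2 hn.symm, S.coe_nU _ _⟩
    rw [← he i hN]
    show e (QuotientGroup.mk' _ (ι g)) = _
    congr 1
    refine congrArg (QuotientGroup.mk' _) (Subtype.ext (Subtype.ext (Units.ext ?_)))
    exact hg.trans (S.coe_nU _ _).symm

/-- A word of reflections on coefficient lists. -/
def wordL (n : ℕ) (C : List (List ℤ)) (L : List ℕ) (x : List ℤ) : List ℤ :=
  L.foldr (fun q y => reflL n C q y) x

theorem toList_Lw {C : List (List ℤ)} (hC : CartanOK D C) {L : List ℕ} (hL : ∀ q ∈ L, q < D.rank)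
    (x : Fin D.rank → ℤ) : List.ofFn (S.Lw L x) = wordL D.rank C L (List.ofFn x) := by
  induction L with
  | nil => rfl
  | cons q L ih =>
    rw [Lw_cons, Module.End.mul_apply, S.toList_refl hC (hL q (List.mem_cons_self ..)),
      ih fun y hy => hL y (List.mem_cons_of_mem _ hy)]
    rfl

theorem wprod_eq_one_iff {C : List (List ℤ)} (hC : CartanOK D C) {L : List ℕ}
    (hL : ∀ q ∈ L, q < D.rank) :
    S.wprod L = 1 ↔ ∀ a < D.rank, wordL D.rank C L (eK D.rank a) = eK D.rank a := by
  have hb : ∀ a : Fin D.rank, List.ofFn (Pi.single a (1 : ℤ) : Fin D.rank → ℤ) = eK D.rank a := by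
    intro a
    refine List.ext_getElem (by simp [eK]) fun m h1 h2 => ?_
    rw [List.length_ofFn] at h1
    simp only [eK, List.getElem_ofFn, List.getElem_map, List.getElem_range, Pi.single_apply]
    exact if_congr ⟨fun e => congrArg Fin.val e, fun e => Fin.ext e⟩ rfl rfl
  constructor
  · intro h a ha
    have h1 := S.rv_wprod L (S.sr ⟨a, ha⟩)
    rw [h, Equiv.Perm.one_apply, rv_sr] at h1
    have h2 := S.toList_Lw hC hL (Pi.single (⟨a, ha⟩ : Fin D.rank) 1)
    rw [← h1, hb] at h2
    exact h2.symm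
  · intro h
    refine Equiv.ext fun s => S.rv_injective ?_
    rw [Equiv.Perm.one_apply, S.rv_wprod]
    have hid : S.Lw L = 1 := by
      refine LinearMap.pi_ext' fun a => LinearMap.ext_ring ?_
      simp only [LinearMap.coe_comp, Function.comp_apply, LinearMap.coe_single, Module.End.one_apply]
      apply List.ofFn_injective
      rw [S.toList_Lw hC hL, hb, h a a.2]
    rw [hid, Module.End.one_apply]

end Sys

/-- `h` copies of the product of the fundamental reflections. -/
def coxWord (n h : ℕ) : List ℕ := (List.replicate h (List.range n)).flatten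

/-- The Coxeter element has order `h`. -/
def coxElOK (n : ℕ) (C : List (List ℤ)) (h : ℕ) : Bool :=
  decide (0 < h) && ((List.range n).all fun a => decide (Sys.wordL n C (coxWord n h) (eK n a) = eK n a)) &&
    (List.range h).all fun k => decide (k = 0) ||
      !((List.range n).all fun a => decide (Sys.wordL n C (coxWord n k) (eK n a) = eK n a))

theorem Sys.card_coxeter_group {D : ChevalleyDatum} (S : Sys.{0} D) {n : ℕ} (hn : D.rank = n)
    {C : List (List ℤ)} (hC : CartanOK D C) (M : CoxeterMatrix (Fin n)) {Mf : ℕ → ℕ → ℕ}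
    (hMf : ∀ i j : Fin n, Mf i j = M i j) (hM : coxOK D.rank C Mf = true)
    {orbs : List (List (List ℤ × ℕ))} (horb : ∀ k < D.rank, orbOK D.rank C k (orbs.getD k []) = true) :
    Nat.card M.Group = ((List.range n).map fun j => (orbs.getD j []).length).prod := by
  obtain ⟨-, ψ, hinj, -, -, hrange⟩ := S.exists_coxeter_perm ℚ hn hC M hMf hM
  rw [Nat.card_congr (MonoidHom.ofInjective hinj).toEquiv, hrange]
  have h := S.poincare_chain hC horb 1 _ le_rfl
  simp only [one_pow, Finset.sum_const, nsmul_eq_mul, mul_one, List.map_const',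
    List.sum_replicate] at h
  have hc : Nat.card S.weyl = (S.wfin D.rank).card := by
    rw [← Nat.card_eq_finsetCard]
    exact Nat.card_congr (Equiv.subtypeEquivRight fun w => by rw [S.mem_wfin, S.wsub_rank])
  rw [hc]
  subst hn
  apply Nat.cast_injective (R := ℤ)
  rw [h]
  rw [Nat.cast_list_prod, List.map_map]
  rfl

theorem Sys.orderOf_coxeter_element {D : ChevalleyDatum} (S : Sys.{0} D) {n : ℕ} (hn : D.rank = n)
    {C : List (List ℤ)} (hC : CartanOK D C) (M : CoxeterMatrix (Fin n)) {Mf : ℕ → ℕ → ℕ}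
    (hMf : ∀ i j : Fin n, Mf i j = M i j) (hM : coxOK D.rank C Mf = true) {h : ℕ}
    (hh : coxElOK n C h = true) :
    orderOf ((List.finRange n).map M.simple).prod = h := by
  obtain ⟨-, ψ, hinj, -, hψ, -⟩ := S.exists_coxeter_perm ℚ hn hC M hMf hM
  subst hn
  have hwd : ∀ k, S.wprod (coxWord D.rank k) = (S.wprod (List.range D.rank)) ^ k := by
    intro k
    induction k with
    | zero => rfl
    | succ k ih => rw [coxWord, List.replicate_succ, List.flatten_cons, wprod_append, ← coxWord, ih, pow_succ']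
  have hlt : ∀ k, ∀ q ∈ coxWord D.rank k, q < D.rank := by
    intro k q hq
    obtain ⟨l, hl, hql⟩ := List.mem_flatten.1 hq
    rw [(List.mem_replicate.1 hl).2] at hql
    exact List.mem_range.1 hql
  have e : ψ ((List.finRange D.rank).map M.simple).prod = S.wprod (List.range D.rank) := by
    rw [map_list_prod, List.map_map, wprod]
    congr 1
    rw [← List.map_coe_finRange_eq_range, List.map_map]
    exact List.map_congr_left fun i _ => hψ i
  rw [← orderOf_injective ψ hinj, e]
  simp only [coxElOK, List.all_eq_true, List.mem_range, Bool.and_eq_true, decide_eq_true_eq,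
    Bool.or_eq_true, Bool.not_eq_true'] at hh
  obtain ⟨⟨h0, h1⟩, h2⟩ := hh
  rw [orderOf_eq_iff h0]
  refine ⟨by rw [← hwd, S.wprod_eq_one_iff hC (hlt _)]; exact h1, fun m hm hm0 he => ?_⟩
  rw [← hwd, S.wprod_eq_one_iff hC (hlt _)] at he
  rcases h2 m hm with h' | h'
  · omega
  · rw [Bool.eq_false_iff] at h'
    apply h'
    simpa [List.all_eq_true] using he

end CfsgLib.Chev
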