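import Cfsg.Agent.Chev.BN
import Cfsg.Agent.Chev.Parabolic
import Cfsg.Prelude.Def_LieTwisted

/-! A bound on the exponent of the unipotent elements. -/

set_option autoImplicit false

namespace CfsgLib.Chev

open Cfsg.Lie Matrix

universe u

namespace Sys

variable {D : ChevalleyDatum} (S : Sys.{u} D) {F : Type u} [Field F]

include S

theorem genSubgroup_le_group (P : Set (List (ℕ × F))) : D.genSubgroup F P ≤ D.group F := by
  rw [ChevalleyDatum.genSubgroup, Subgroup.closure_le]
  rintro g ⟨w, -, hg⟩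
  rw [show g = S.wU w from Units.ext (hg.trans (S.coe_wU w).symm)]
  exact S.wU_mem_group w

/-- If all heights are at most `H` in absolute value, an element of `U` has order dividing any
power of `p` above `2 H`. -/
theorem pow_eq_one_of_pos (G : Geo D) {H : ℕ}
    (hH : ∀ r < D.nroots, |∑ i ∈ Finset.range D.rank, S.vec r i| ≤ (H : ℤ)) (p : ℕ) [hp : Fact p.Prime]
    [CharP F p] (e : ℕ) (he : 2 * H < p ^ e) {u : GL D.Idx F} (hu : u ∈ D.posUnipotent F) :
    u ^ (p ^ e) = 1 := by
  classical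
  have hrad : u ∈ D.unipotentRadical F (∅ : Set ℕ) := by
    rw [S.unipotentRadical_eq G]
    rw [S.posUnipotent_eq] at hu
    refine (show S.tailU F (D.nroots / 2) ≤ _ from ?_) hu
    rw [tailU, Subgroup.closure_le]
    rintro _ ⟨r, t, h1, h2, rfl⟩
    refine S.xU_mem_genBy h1 h2 (fun hJ => ?_) t
    have h3 := S.lev_pos h2 h1
    rw [S.lev_eq, Finset.sum_eq_zero fun i hi => by
      rw [hJ.2 i (Finset.mem_range.1 hi) (Set.notMem_empty i), mul_zero]] at h3
    exact lt_irrefl _ h3
  have hU := S.radical_uni G ∅ hrad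
  have hw : ∀ a, |(S.omega (∅ : Set ℕ) a : ℤ) - S.bnd| ≤ (H : ℤ) := by
    rintro (i | s)
    · rw [S.omega_inl]; simp
    · rw [S.omega_inr, add_sub_cancel_left]
      rw [Finset.sum_congr rfl fun i _ => by
        rw [Set.indicator_of_mem (show i ∈ (∅ : Set ℕ)ᶜ by simp)]]
      exact hH s s.2
  have h0 : ((u : Matrix D.Idx D.Idx F) - 1) ^ (p ^ e) = 0 := by
    ext a b
    refine uni_pow_sub_one hU (p ^ e) a b ?_
    have h1 := abs_le.1 (hw a)
    have h2 := abs_le.1 (hw b)
    have : ((2 * H : ℕ) : ℤ) < ((p ^ e : ℕ) : ℤ) := by exact_mod_cast he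
    push_cast at this
    omega
  cases isEmpty_or_nonempty D.Idx
  · exact Units.ext (Matrix.ext fun a => isEmptyElim a)
  haveI : CharP (Matrix D.Idx D.Idx F) p := inferInstance
  rw [sub_pow_char_pow_of_commute _ _ (Commute.one_right _), one_pow, sub_eq_zero] at h0
  exact Units.ext (by rw [Units.val_pow_eq_pow_val]; exact h0)

/-- An element of `p`-power order of the group has order dividing any power of `p` above `2 H`. -/
theorem pow_eq_one_of_pgroup [Finite F] (G : Geo D) {H : ℕ}
    (hH : ∀ r < D.nroots, |∑ i ∈ Finset.range D.rank, S.vec r i| ≤ (H : ℤ)) (p : ℕ) [hp : Fact p.Prime]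
    [CharP F p] (e : ℕ) (he : 2 * H < p ^ e) {g : GL D.Idx F} (hg : g ∈ D.group F)
    (hord : ∃ j, orderOf g = p ^ j) : g ^ (p ^ e) = 1 := by
  classical
  haveI := finite_GL (D := D) (F := F)
  haveI : Fintype F := Fintype.ofFinite F
  have hUp : IsPGroup p ((D.posUnipotent F).subgroupOf (D.group F)) := by
    obtain ⟨k, -, hk⟩ := FiniteField.card F p
    refine IsPGroup.of_card (n := (k : ℕ) * (D.nroots / 2)) ?_
    rw [Nat.card_congr (Subgroup.subgroupOfEquivOfLe S.pos_le_group).toEquiv, S.card_pos,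
      Nat.card_eq_fintype_card, hk, pow_mul]
  let P₀ : Sylow p (D.group F) := hUp.toSylow (S.not_dvd_index_pos (F := F) p)
  let x : D.group F := ⟨g, hg⟩
  have hxp : IsPGroup p (Subgroup.zpowers x) := by
    obtain ⟨j, hj⟩ := hord
    refine IsPGroup.of_card (n := j) ?_
    rw [Nat.card_zpowers, ← hj]
    exact (orderOf_injective (D.group F).subtype Subtype.val_injective x).symm
  obtain ⟨P, hP⟩ := hxp.exists_le_sylow
  obtain ⟨k, rfl⟩ := MulAction.exists_smul_eq (D.group F) P₀ P
  obtain ⟨u, hu, e1⟩ := hP (Subgroup.mem_zpowers x)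
  have h1 : (u : GL D.Idx F) ^ (p ^ e) = 1 := S.pow_eq_one_of_pos G hH p e he hu
  have h2 : k * u * k⁻¹ = x := e1
  have h3 : x ^ (p ^ e) = 1 := by
    rw [← h2, conj_pow, show u ^ (p ^ e) = 1 from Subtype.ext h1]
    group
  exact congrArg Subtype.val h3

end Sys

end CfsgLib.Chev
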