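import Cfsg.Agent.Chev.Bruhat
import Cfsg.Agent.Chev.Inst
import Cfsg.Prelude.Def_ChevAutomorphisms

/-!
# Generation by the monomial subgroup and fundamental root subgroups
-/

set_option autoImplicit false

namespace CfsgLib.Chev

open Cfsg.Lie Matrix

universe u

/-- `p_j` is the image of `p_q` under two fundamental reflections. -/
def genLink (D : ChevalleyDatum) (q j : ℕ) : Bool :=
  decide (D.reflectRoot q (D.reflectRoot j (D.simple q)) = D.simple j)

/-- `p_j` is a commutator of conjugates of `p_q` with coefficient in `±ks`. -/
def genComm (D : ChevalleyDatum) (ks : List ℕ) (q j : ℕ) : Bool :=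
  decide (D.neg (D.simple q) ≠ D.reflectRoot j (D.simple q)) &&
    decide (D.neg (D.simple q) ≠ D.neg (D.reflectRoot j (D.simple q))) &&
    match D.commTerms (D.reflectRoot j (D.simple q)) (D.neg (D.simple q)) with
    | [c] => decide (c.1 = D.simple j) && decide (c.2.1.natAbs ∈ ks) && decide (c.2.2.1 = 1) &&
        decide (c.2.2.2 = 1)
    | _ => false

/-- The fundamental roots reached in `m` steps. -/
def genReach (D : ChevalleyDatum) (ks start : List ℕ) : ℕ → List ℕ
  | 0 => start
  | m + 1 =>
    let known := genReach D ks start m
    (List.range D.rank).filter fun j =>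
      known.contains j || known.any fun q =>
        decide (q < D.rank) && (genLink D q j || genComm D ks q j)

/-- Every fundamental root is reached from `start`. -/
def genFull (D : ChevalleyDatum) (ks start : List ℕ) : Bool :=
  (List.range D.rank).all fun j => (genReach D ks start D.rank).contains j

namespace Sys

variable {D : ChevalleyDatum} (S : Sys.{u} D) {F : Type u} [Field F]

include S

theorem group_le_of_genFull {ks start : List ℕ} (h : genFull D ks start = true)
    (hks : ∀ k ∈ ks, (k : F) ≠ 0) {M : Subgroup (GL D.Idx F)} (hN : D.monomialSubgroup F ≤ M)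
    (hs : ∀ j ∈ start, j < D.rank → D.rootSubgroup F (D.simple j) ≤ M) : D.group F ≤ M := by
  have hn : ∀ q < D.rank, S.nU (D.simple q) (1 : F) ∈ M := fun q hq =>
    hN (S.nU_mem_mono (S.simple_lt hq) (1 : Fˣ))
  have hpi : ∀ q < D.rank, ∀ r < D.nroots, (∀ t : F, S.xU r t ∈ M) →
      ∀ t : F, S.xU (S.pi q r) t ∈ M := by
    intro q hq r hr hx t
    have := mul_mem (mul_mem (hn q hq) (hx ((S.eta q r : F) * t))) (inv_mem (hn q hq))
    rwa [S.nU_conj_xU hq hr, ← mul_assoc, ← Int.cast_mul, S.eta_sq hq hr, Int.cast_one,
      one_mul] at this
  have hneg : ∀ q < D.rank, (∀ t : F, S.xU (D.simple q) t ∈ M) →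
      ∀ t : F, S.xU (D.neg (D.simple q)) t ∈ M := fun q hq hx t => by
    rw [← S.pi_simple q hq]
    exact hpi q hq _ (S.simple_lt hq) hx t
  have key : ∀ m, ∀ j ∈ genReach D ks start m, j < D.rank →
      ∀ t : F, S.xU (D.simple j) t ∈ M := by
    intro m
    induction m with
    | zero =>
      intro j hj hjr t
      exact hs j hj hjr (Subgroup.subset_closure ⟨t, rfl⟩)
    | succ m ih =>
      intro j hj hjr t
      simp only [genReach, List.mem_filter, List.mem_range, Bool.or_eq_true, List.contains_iff_mem,
        List.any_eq_true, Bool.and_eq_true, decide_eq_true_eq] at hj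
      obtain ⟨-, hj | ⟨q, hq, hqr, hj | hj⟩⟩ := hj
      · exact ih j hj hjr t
      · simp only [genLink, decide_eq_true_eq] at hj
        have hr1 := S.pi_lt j hjr _ (S.simple_lt hqr)
        rw [← S.pi_reflect j hjr _ (S.simple_lt hqr), ← S.pi_reflect q hqr _ hr1] at hj
        rw [← hj]
        exact hpi q hqr _ hr1 (hpi j hjr _ (S.simple_lt hqr) (ih q hq hqr)) t
      · simp only [genComm, Bool.and_eq_true, decide_eq_true_eq] at hj
        rw [← S.pi_reflect j hjr _ (S.simple_lt hqr)] at hj
        obtain ⟨⟨h1, h2⟩, h3⟩ := hj
        split at h3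
        · rename_i c hc
          obtain ⟨k, C, e1, e2⟩ := c
          simp only [Bool.and_eq_true, decide_eq_true_eq] at h3
          obtain ⟨⟨⟨hk, hC⟩, he1⟩, he2⟩ := h3
          subst hk he1 he2
          have hC0 : (C : F) ≠ 0 := by
            intro h0
            apply hks _ hC
            rcases Int.natAbs_eq C with e | e <;> rw [e] at h0
            · simpa using h0
            · simpa using h0
          have hr1 := S.pi_lt j hjr _ (S.simple_lt hqr)
          have ha := hpi j hjr _ (S.simple_lt hqr) (ih q hq hqr)
          have hb := hneg q hqr (ih q hq hqr)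
          have hw := S.comm_wU (F := F) hr1 (S.neg_lt (S.simple_lt hqr)) h1 h2 (-(t / (C : F))) 1
          rw [ChevalleyDatum.commWord, hc] at hw
          simp only [List.map_cons, List.map_nil, wU, List.prod_cons, List.prod_nil, mul_one,
            pow_one] at hw
          rw [show (C : F) * - -(t / (C : F)) = t by field_simp] at hw
          have := mul_mem (mul_mem (inv_mem (hb 1)) (inv_mem (ha (-(t / (C : F))))))
            (mul_mem (hb 1) (ha (-(t / (C : F)))))
          rw [hw] at this
          simpa [mul_assoc] using this
        · exact absurd h3 Bool.false_ne_true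
  simp only [genFull, List.all_eq_true, List.mem_range, List.contains_iff_mem] at h
  have hall : ∀ r < D.nroots, ∀ t : F, S.xU r t ∈ M :=
    S.descend (fun j hj => key _ j (h j hj) hj) fun q hq r hr hx => hpi q hq r hr hx
  rw [ChevalleyDatum.group, Subgroup.closure_le]
  rintro g ⟨r, t, hg⟩
  rw [show g = S.xU r t from Units.ext (hg.trans (by simp [ChevalleyDatum.x, r.2]))]
  exact hall r r.2 t

end Sys

/-- A short fundamental root with the monomial subgroup reaches everything. -/
def shortFull (D : ChevalleyDatum) (ks : List ℕ) : Bool :=
  (List.range D.rank).all fun i => D.isLong (D.simple i) || genFull D ks [i]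

/-- A short and a long fundamental root with the monomial subgroup reach everything. -/
def pairFull (D : ChevalleyDatum) : Bool :=
  (List.range D.rank).all fun i => (List.range D.rank).all fun j =>
    D.isLong (D.simple i) || !D.isLong (D.simple j) || genFull D [] [i, j]

theorem pairFull_B2 : pairFull chevB2 = true := by decide +kernel
theorem pairFull_G2 : pairFull chevG2 = true := by decide +kernel
theorem pairFull_F4 : pairFull chevF4 = true := by decide +kernel
theorem shortFull_B2 : shortFull chevB2 [2] = true := by decide +kernel
theorem shortFull_G2 : shortFull chevG2 [3] = true := by decide +kernel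
theorem shortFull_F4 : shortFull chevF4 [2] = true := by decide +kernel

theorem anyFull_D4 : ((List.range chevD4.rank).all fun i => genFull chevD4 [] [i]) = true := by
  decide +kernel
theorem anyFull_E6 : ((List.range chevE6.rank).all fun i => genFull chevE6 [] [i]) = true := by
  decide +kernel
theorem anyFull_E7 : ((List.range chevE7.rank).all fun i => genFull chevE7 [] [i]) = true := by
  decide +kernel
theorem anyFull_E8 : ((List.range chevE8.rank).all fun i => genFull chevE8 [] [i]) = true := by
  decide +kernel

end CfsgLib.Chev
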