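import Cfsg.Agent.Chev.WeylPoincare
import Cfsg.Prelude.Def_ChevD4

/-! Orbit tables for the Poincaré polynomial of the Weyl group of type D4. -/

set_option autoImplicit false
set_option maxRecDepth 100000
set_option linter.style.longLine false

namespace CfsgLib.Chev.PoincareD4

open CfsgLib.Chev Cfsg.Lie

/-- Cartan integers. -/
def cart : List (List ℤ) := [[2, -1, 0, 0], [-1, 2, -1, -1], [0, -1, 2, 0], [0, -1, 0, 2]]

/-- Orbit 0. -/
def orb0 : List (List ℤ × ℕ) := [([1, 0, 0, 0], 0),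
  ([-1, 1, 0, 0], 1)]

theorem orb0_ok : orbOK 4 cart 0 orb0 = true := by decide +kernel

/-- Orbit 1. -/
def orb1 : List (List ℤ × ℕ) := [([0, 1, 0, 0], 0),
  ([1, -1, 1, 1], 1),
  ([-1, 0, 1, 1], 2)]

theorem orb1_ok : orbOK 4 cart 1 orb1 = true := by decide +kernel

/-- Orbit 2. -/
def orb2 : List (List ℤ × ℕ) := [([0, 0, 1, 0], 0),
  ([0, 1, -1, 0], 1),
  ([1, -1, 0, 1], 2),
  ([-1, 0, 0, 1], 3)]

theorem orb2_ok : orbOK 4 cart 2 orb2 = true := by decide +kernel

/-- Orbit 3. -/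
def orb3 : List (List ℤ × ℕ) := [([0, 0, 0, 1], 0),
  ([0, 1, 0, -1], 1),
  ([1, -1, 1, 0], 2),
  ([-1, 0, 1, 0], 3),
  ([1, 0, -1, 0], 3),
  ([-1, 1, -1, 0], 4),
  ([0, -1, 0, 1], 5),
  ([0, 0, 0, -1], 6)]

theorem orb3_ok : orbOK 4 cart 3 orb3 = true := by decide +kernel

/-- All orbits. -/
def orbs : List (List (List ℤ × ℕ)) := [orb0, orb1, orb2, orb3]

/-- The degrees. -/
def degs : List ℕ := [2, 4, 4, 6]

theorem poly_ok : polyOK 4 orbs degs = true := by decide +kernel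

theorem cart_ok : CartanOK chevD4 cart := by
  unfold CartanOK
  decide +kernel

theorem rank_eq : chevD4.rank = 4 := by decide +kernel

theorem poincare (S : Sys chevD4) (x : ℤ) :
    (x - 1) ^ 4 * ∑ w ∈ S.wfin chevD4.rank, x ^ Sys.wlen w = (degs.map fun d => x ^ d - 1).prod := by
  have h := S.poincare_weyl cart_ok (orbs := orbs) (by rw [rank_eq]; rfl) (fun k hk => by
    rw [rank_eq] at hk ⊢
    match k, hk with
    | 0, _ => exact orb0_ok
    | 1, _ => exact orb1_ok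
    | 2, _ => exact orb2_ok
    | 3, _ => exact orb3_ok
    | k + 4, hk => exact absurd hk (Nat.not_lt.2 (Nat.le_add_left 4 k)))
    (degs := degs) (by rw [rank_eq]; exact poly_ok) x
  have hpow : (x - 1) ^ 4 = (x - 1) ^ chevD4.rank := by rw [rank_eq]
  rw [hpow]
  exact h

end CfsgLib.Chev.PoincareD4
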