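import Cfsg.Agent.Chev.Parabolic
import Cfsg.Agent.Chev.BN
import Cfsg.Agent.BNSteinberg.Counting
import Cfsg.Prelude.Def_ParabolicCharacters

/-!
# The longest cells of standard parabolic subgroups and the Steinberg alternating sum

The elements of `U` fixing a point of the longest cell of `W_I` form the radical `U_I`; the
alternating sum of the parabolic permutation characters restricted to `B` is the permutation
character on `B / H`; and the number of unipotent elements is `|U|^2`.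
-/

set_option autoImplicit false

namespace CfsgLib.Chev

open Cfsg.Lie Matrix
open CfsgLib.BNPair CfsgLib.BNSteinberg

universe u

/-- The permutation character on `A / H` counts the fixed points in an orbit with stabiliser `H`. -/
theorem card_fixedBy_orbit {A X : Type*} [Group A] [MulAction A X] (H : Subgroup A) (o : X)
    (hH : ∀ a : A, a • o = o ↔ a ∈ H) (T : X → Prop) (hT : ∀ x, T x ↔ ∃ a : A, a • o = x) (b : A) :
    Nat.card (MulAction.fixedBy (A ⧸ H) b) = Nat.card {x : {x // T x} // b • x.1 = x.1} := by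
  have key : ∀ a c : A, a • o = c • o ↔ a⁻¹ * c ∈ H := fun a c => by
    rw [← hH, mul_smul, inv_smul_eq_iff, eq_comm]
  have hout : ∀ a : A, (a : A ⧸ H).out • o = a • o := fun a => by
    obtain ⟨r, hr⟩ := QuotientGroup.mk_out_eq_mul H a
    rw [hr, mul_smul, (hH r).2 r.2]
  have hfix : ∀ q : A ⧸ H, b • q = q ↔ b • q.out • o = q.out • o := by
    intro q
    conv_lhs => rw [← q.out_eq]
    rw [smul_smul, key]
    exact QuotientGroup.eq
  let g : MulAction.fixedBy (A ⧸ H) b → {x : {x // T x} // b • x.1 = x.1} :=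
    fun q => ⟨⟨q.1.out • o, (hT _).2 ⟨_, rfl⟩⟩, (hfix _).1 q.2⟩
  refine Nat.card_eq_of_bijective g ⟨fun q q' h => ?_, fun x => ?_⟩
  · refine Subtype.ext ?_
    rw [← q.1.out_eq, ← q'.1.out_eq]
    exact QuotientGroup.eq.2 ((key _ _).1 (congrArg (fun y => y.1.1) h))
  · obtain ⟨a, ha⟩ := (hT _).1 x.1.2
    exact ⟨⟨(a : A ⧸ H), (hfix _).2 (by rw [hout, ha]; exact x.2)⟩,
      Subtype.ext (Subtype.ext ((hout a).trans ha))⟩

namespace Sys

variable {D : ChevalleyDatum} (S : Sys.{u} D) {F : Type u} [Field F]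

variable (F) in
/-- The fundamental generators as elements of the BN-pair. -/
def fS (i : Fin D.rank) : (S.bnPair F).S := ⟨S.nG F i, i, i.2, S.coe_nU _ _⟩

/-- Indices of fundamental roots as natural numbers. -/
abbrev natSet (I : Finset (Fin D.rank)) : Finset ℕ := I.map Fin.valEmbedding

variable (F) in
/-- The unipotent radical inside the Chevalley group. -/
def radIn (I : Finset (Fin D.rank)) : Subgroup (D.group F) :=
  (D.unipotentRadical F (↑(natSet I) : Set ℕ)).subgroupOf (D.group F)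

theorem mem_natSet_iff {I : Finset (Fin D.rank)} {q : ℕ} :
    q ∈ (↑(natSet I) : Set ℕ) ↔ ∃ i ∈ I, (i : ℕ) = q := by
  simp

include S

theorem fS_surjective : Function.Surjective (S.fS F) := by
  rintro ⟨n, i, hi, e⟩
  exact ⟨⟨i, hi⟩, Subtype.ext (Subtype.ext (Units.ext ((S.coe_nU _ _).trans e.symm)))⟩

theorem par_eq (I : Finset (Fin D.rank)) :
    par (S.bnPair F) (S.fS F) I = D.parabolicIn F (natSet I) := by
  apply Subgroup.map_injective (D.group F).subtype_injective
  rw [ChevalleyDatum.parabolicIn, Subgroup.subgroupOf_map_subtype,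
    inf_of_le_left (S.parabolic_le_group _), par, Cfsg.BNPair.parabolic, Subgroup.map_sup,
    MonoidHom.map_closure, ChevalleyDatum.parabolicSubgroup]
  congr 1
  · show ((D.borelSubgroup F).subgroupOf (D.group F)).map (D.group F).subtype = _
    rw [Subgroup.subgroupOf_map_subtype, inf_of_le_left S.borel_le_group]
  · congr 1
    ext g
    simp only [Set.mem_image, Finset.mem_coe, Set.mem_setOf_eq]
    constructor
    · rintro ⟨_, ⟨i, hi, rfl⟩, rfl⟩
      exact ⟨i, mem_natSet_iff.2 ⟨i, hi, rfl⟩, i.2, S.coe_nU _ _⟩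
    · rintro ⟨j, hjI, hj, e⟩
      obtain ⟨i, hi, rfl⟩ := mem_natSet_iff.1 hjI
      exact ⟨_, ⟨i, hi, rfl⟩, Units.ext ((S.coe_nU _ _).trans e.symm)⟩

theorem par_univ : par (S.bnPair F) (S.fS F) Finset.univ = ⊤ := by
  rw [par, ← parabolic_S (S.bnPair F)]
  congr 1
  ext n
  simp only [Finset.coe_univ, Set.image_univ, Set.mem_range]
  exact ⟨fun ⟨i, e⟩ => e ▸ (S.fS F i).2,
    fun h => (S.fS_surjective (F := F) ⟨n, h⟩).imp fun i e => congrArg Subtype.val e⟩

/-- The value of a word of indices in the Weyl group of the BN-pair. -/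
theorem wd_word (L : List (Fin D.rank)) :
    ∃ hn : (L.map fun i : Fin D.rank => S.nG F i).prod ∈ (S.bnPair F).N,
      CfsgLib.BNPair.mk (S.bnPair F) _ hn = wd (S.bnPair F) (L.map (S.fS F)) ∧
      (((L.map fun i : Fin D.rank => S.nG F i).prod : D.group F) : GL D.Idx F) =
        S.nw F (L.map fun i : Fin D.rank => (i : ℕ)) := by
  induction L with
  | nil => exact ⟨one_mem _, rfl, rfl⟩
  | cons i L ih =>
    obtain ⟨hn, e, e'⟩ := ih
    simp only [List.map_cons, List.prod_cons, wd_cons, nw_cons]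
    exact ⟨mul_mem ((S.bnPair F).subset (S.fS F i).2) hn, by rw [← e]; rfl,
      by rw [Subgroup.coe_mul, e', coe_nG]⟩

theorem exists_lift (M : List (S.bnPair F).S) :
    ∃ L : List (Fin D.rank), L.map (S.fS F) = M :=
  List.map_surjective_iff.2 S.fS_surjective M

omit S in
theorem word_lt (L : List (Fin D.rank)) :
    ∀ q ∈ L.map (fun i : Fin D.rank => (i : ℕ)), q < D.rank := by
  simp

theorem acts_congr {m n : D.group F} {hm : m ∈ (S.bnPair F).N} {hn : n ∈ (S.bnPair F).N}
    (h : CfsgLib.BNPair.mk (S.bnPair F) m hm = CfsgLib.BNPair.mk (S.bnPair F) n hn) {w v : Equiv.Perm (Fin D.nroots)}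
    (hw : S.Acts (m : GL D.Idx F) w) (hv : S.Acts (n : GL D.Idx F) v) : w = v := by
  rw [mk_eq_iff] at h
  have hd : (m : GL D.Idx F)⁻¹ * (n : GL D.Idx F) ∈ D.diagonalSubgroup F := by
    rw [← S.borel_inf_mono]
    exact Subgroup.mem_inf.2 ⟨h, mul_mem (inv_mem hm) hn⟩
  have := S.acts_mul hw (S.acts_diag hd)
  rw [mul_inv_cancel_left, mul_one] at this
  exact S.acts_unique this hv

/-- A descent makes the fundamental root negative. -/
theorem neg_of_desc {L : List (Fin D.rank)} {i : Fin D.rank}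
    (hd : IsDesc (S.bnPair F) (S.fS F) (wd (S.bnPair F) (L.map (S.fS F))) i) :
    (S.wprod (L.map fun j : Fin D.rank => (j : ℕ)) ⟨D.simple i, S.simple_lt i.2⟩ : ℕ) <
      D.nroots / 2 := by
  by_contra hpos
  push Not at hpos
  obtain ⟨M, hM, hMv⟩ := exists_reduced (S.bnPair F) (wd (S.bnPair F) (L.map (S.fS F)) * σ (S.bnPair F) (S.fS F i))
  obtain ⟨L', rfl⟩ := S.exists_lift M
  obtain ⟨hn, e1, e1'⟩ := S.wd_word (F := F) L
  obtain ⟨hn', e2, e2'⟩ := S.wd_word (F := F) L'
  rw [List.length_map] at hM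
  have hσ : σ (S.bnPair F) (S.fS F i) = CfsgLib.BNPair.mk (S.bnPair F) (S.nG F i) ((S.bnPair F).subset (S.fS F i).2) := rfl
  have ew : wd (S.bnPair F) (L.map (S.fS F)) = CfsgLib.BNPair.mk (S.bnPair F) (_ * S.nG F i) (mul_mem hn' ((S.bnPair F).subset (S.fS F i).2)) := by
    refine Eq.trans ?_ (mk_mul (S.bnPair F) hn' (n' := S.nG F i) ((S.bnPair F).subset (S.fS F i).2))
    rw [e2, ← hσ, hMv, mul_assoc, σ_sq, mul_one]
  have hperm : S.wprod (L.map fun j : Fin D.rank => (j : ℕ)) =
      S.wprod (L'.map fun j : Fin D.rank => (j : ℕ)) * S.refl i :=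
    S.acts_congr (e1.trans ew) (e1' ▸ S.acts_nw (word_lt L))
      (by rw [Subgroup.coe_mul, e2', coe_nG]; exact S.acts_mul (S.acts_nw (word_lt L')) (S.acts_nU i.2))
  have hneg : (S.wprod (L'.map fun j : Fin D.rank => (j : ℕ))
      ⟨D.simple i, S.simple_lt i.2⟩ : ℕ) < D.nroots / 2 := by
    rw [hperm, Equiv.Perm.mul_apply, show S.refl i ⟨D.simple i, S.simple_lt i.2⟩ =
        ⟨D.neg (D.simple i), S.neg_lt (S.simple_lt i.2)⟩ from
      Fin.ext (by rw [S.refl_apply i.2]; exact S.pi_simple i i.2),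
      S.wprod_neg (word_lt L') ⟨D.simple i, S.simple_lt i.2⟩ _ rfl, S.neg_eq _ (Fin.is_lt _)] at hpos
    have := S.even_nroots
    omega
  obtain ⟨L'', h1, h2, -, h, hh, h4⟩ := S.exists_delete (F := F) i.2 _ (word_lt L') hneg
  obtain ⟨K, rfl⟩ : ∃ K : List (Fin D.rank), K.map (fun j : Fin D.rank => (j : ℕ)) = L'' :=
    ⟨L''.pmap Fin.mk h1, by simp [List.map_pmap, List.pmap_eq_map]⟩
  obtain ⟨hk, e3, e3'⟩ := S.wd_word (F := F) K
  have : wd (S.bnPair F) (L.map (S.fS F)) = wd (S.bnPair F) (K.map (S.fS F)) := by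
    rw [ew, ← e3, eq_comm, mk_eq_iff]
    show (((K.map fun j : Fin D.rank => S.nG F j).prod⁻¹ * (_ * S.nG F i) : D.group F) :
      GL D.Idx F) ∈ D.borelSubgroup F
    rw [Subgroup.coe_mul, Subgroup.coe_inv, Subgroup.coe_mul, e3', e2', coe_nG, h4]
    refine Subgroup.mem_sup_right ?_
    have := S.mono_conj_diag (inv_mem (S.nw_mem_mono (F := F) (word_lt K))) hh
    rwa [inv_inv, mul_assoc] at this
  have hlen := len_wd_le (S.bnPair F) (K.map (S.fS F))
  rw [← this, List.length_map] at hlen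
  simp only [List.length_map] at h2
  unfold IsDesc at hd
  omega

theorem radical_univ : radIn (D := D) F Finset.univ = ⊥ ∨ ¬ Geo D := by
  by_cases G : Geo D
  · left
    have : D.unipotentRadical F (↑(natSet (Finset.univ : Finset (Fin D.rank))) : Set ℕ) = ⊥ := by
      rw [S.unipotentRadical_eq G, genBy, Subgroup.closure_eq_bot_iff]
      rintro g ⟨r, t, -, h2, hJ, rfl⟩
      refine absurd ⟨h2, fun i hi hiJ => absurd ?_ hiJ⟩ hJ
      exact mem_natSet_iff.2 ⟨⟨i, hi⟩, Finset.mem_univ _, rfl⟩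
    rw [radIn, this, Subgroup.bot_subgroupOf]
  · exact Or.inr G

variable [Finite F]

omit S in
theorem finite_group : Finite (D.group F) := by
  haveI := finite_GL (D := D) (F := F)
  infer_instance

theorem finite_W : Finite (W (S.bnPair F)) := by
  haveI := finite_group (D := D) (F := F)
  infer_instance

omit [Finite F] in
theorem rad_le_par (G : Geo D) (I : Finset (Fin D.rank)) :
    radIn F I ≤ (D.posUnipotent F).subgroupOf (D.group F) := by
  intro g hg
  rw [radIn, Subgroup.mem_subgroupOf, S.unipotentRadical_eq G] at hg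
  exact Subgroup.mem_subgroupOf.2 (S.genBy_le_pos _ hg)

omit [Finite F] in
theorem rad_conj (G : Geo D) (I : Finset (Fin D.rank)) :
    ∀ t ∈ par (S.bnPair F) (S.fS F) I, ∀ g ∈ radIn F I, t * g * t⁻¹ ∈ radIn (D := D) F I := by
  intro t ht g hg
  rw [S.par_eq, ChevalleyDatum.parabolicIn, Subgroup.mem_subgroupOf] at ht
  rw [radIn, Subgroup.mem_subgroupOf] at hg ⊢
  simp only [Subgroup.coe_mul, Subgroup.coe_inv]
  exact (Subgroup.mem_normalizer_iff.1 (S.parabolic_le_normalizer G _ ht) _).1 hg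

/-- Representatives of the longest element of `W_I` and what they do. -/
theorem exists_top_rep (G : Geo D) [Finite (W (S.bnPair F))] (I : Finset (Fin D.rank)) :
    ∃ (n : D.group F) (hn : n ∈ (S.bnPair F).N),
      CfsgLib.BNPair.mk (S.bnPair F) n hn = w0 (S.bnPair F) (S.fS F) I ∧
      ∀ u ∈ (D.posUnipotent F).subgroupOf (D.group F),
        n⁻¹ * u * n ∈ (S.bnPair F).B ↔ u ∈ radIn F I := by
  set P := S.bnPair F
  obtain ⟨M, hMI, -, hMw⟩ := exists_reduced_mem P _ (w0_mem P (S.fS F) I)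
  obtain ⟨L, rfl⟩ := S.exists_lift M
  obtain ⟨hn, e, e'⟩ := S.wd_word (F := F) L
  refine ⟨_, hn, e.trans hMw, fun u hu => ?_⟩
  set n := (L.map fun i : Fin D.rank => S.nG F i).prod
  set w := S.wprod (L.map fun i : Fin D.rank => (i : ℕ))
  have hw : S.Acts (n : GL D.Idx F) w := e' ▸ S.acts_nw (word_lt L)
  obtain ⟨w', -, hw'⟩ := S.exists_acts (g := ((n⁻¹ : D.group F) : GL D.Idx F))
    (Subgroup.mem_subgroupOf.1 (inv_mem hn))
  obtain rfl : w' = w := S.acts_congr (hm := inv_mem hn) (hn := hn)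
    (by rw [← mk_inv P hn, e, hMw, w0_inv]) hw' hw
  have hnP : (n : GL D.Idx F) ∈ D.parabolicSubgroup F (↑(natSet I) : Set ℕ) := by
    have : n ∈ par P (S.fS F) I := (mem_par_iff P (S.fS F) I n).2
      ⟨_, w0_mem P (S.fS F) I, hMw ▸ e ▸ rep_mem_cell P hn⟩
    rwa [S.par_eq] at this
  have hnn := S.parabolic_le_normalizer G _ hnP
  rw [Subgroup.mem_subgroupOf] at hu
  rw [radIn, Subgroup.mem_subgroupOf]
  show (((n⁻¹ * u * n : D.group F)) : GL D.Idx F) ∈ D.borelSubgroup F ↔ _
  simp only [Subgroup.coe_mul, Subgroup.coe_inv]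
  constructor
  · intro hB
    rw [S.posUnipotent_eq] at hu
    obtain ⟨a, ha, c, hc, eu⟩ :=
      S.exists_split (fun r => ¬ S.InJ (↑(natSet I) : Set ℕ) r) le_rfl hu
    rw [← S.unipotentRadical_eq G] at ha
    have ha' : (n : GL D.Idx F)⁻¹ * a * (n : GL D.Idx F) ∈ D.borelSubgroup F := by
      have h1 := (Subgroup.mem_normalizer_iff.1 (inv_mem hnn) a).1 ha
      rw [inv_inv, S.unipotentRadical_eq G] at h1
      exact Subgroup.mem_sup_left (S.genBy_le_pos _ h1)
    have hc' : c ∈ S.uminus F w := by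
      refine S.genBy_mono (fun r h1 h2 h3 => ?_) hc
      have hJ := not_not.1 h3
      refine ⟨h2, ?_⟩
      by_contra hpos
      push Not at hpos
      obtain ⟨g, hg⟩ := S.wprod_linear (word_lt L) S.wt
      have hgi : ∀ i ∈ I, g i ≤ 0 := by
        intro i hi
        have h := hg ⟨D.simple i, S.simple_lt i.2⟩
        rw [← S.lev_eq, Finset.sum_eq_single_of_mem (i : ℕ) (Finset.mem_range.2 i.2)
          (fun j hj hne => by
            rw [S.vec_simple i i.2 j (Finset.mem_range.1 hj), if_neg (Ne.symm hne), mul_zero]),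
          S.vec_simple i i.2 i i.2, if_pos rfl, mul_one] at h
        rw [← h]
        exact (S.lev_lt_zero (S.neg_of_desc (by rw [hMw]; exact w0_desc P (S.fS F) I hi))).le
      have h0 := S.lev_pos (Fin.is_lt _) hpos
      rw [S.lev_eq, hg ⟨r, h2⟩] at h0
      refine absurd h0 (not_lt.2 (Finset.sum_nonpos fun i hi => ?_))
      have hi' := Finset.mem_range.1 hi
      by_cases hiI : (i : ℕ) ∈ (↑(natSet I) : Set ℕ)
      · obtain ⟨j, hj, rfl⟩ := mem_natSet_iff.1 hiI
        exact mul_nonpos_of_nonpos_of_nonneg (hgi j hj) (S.vec_nonneg r h2 h1 j j.2)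
      · simp [hJ.2 i hi' hiI]
    have hcn : (n : GL D.Idx F)⁻¹ * c * (n : GL D.Idx F) ∈
        D.borelSubgroup F ⊓ D.negUnipotent F := by
      refine Subgroup.mem_inf.2 ⟨?_, ?_⟩
      · have := mul_mem (inv_mem ha') hB
        rw [eu] at this
        convert this using 1
        group
      · have h1 := S.uminus_conj_neg hw' hc'
        rw [Subgroup.coe_inv, inv_inv] at h1
        exact h1
    rw [S.borel_inf_neg, Subgroup.mem_bot] at hcn
    have : c = 1 := by
      have := congrArg (fun x => (n : GL D.Idx F) * x * (n : GL D.Idx F)⁻¹) hcn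
      simpa [mul_assoc] using this
    rw [eu, this, mul_one]
    exact ha
  · intro hR
    have h1 := (Subgroup.mem_normalizer_iff.1 (inv_mem hnn) _).1 hR
    rw [inv_inv, S.unipotentRadical_eq G] at h1
    exact Subgroup.mem_sup_left (S.genBy_le_pos _ h1)

omit [Finite F] in
theorem mem_borel_iff' {b : D.group F} (hb : b ∈ (S.bnPair F).B) :
    ∃ u ∈ (D.posUnipotent F).subgroupOf (D.group F),
      ∃ h ∈ (D.diagonalSubgroup F).subgroupOf (D.group F), b = u * h := by
  obtain ⟨u, hu, h, hh, e⟩ := S.mem_borel_iff.1 (Subgroup.mem_subgroupOf.1 hb)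
  exact ⟨⟨u, S.pos_le_group hu⟩, Subgroup.mem_subgroupOf.2 hu, ⟨h, S.diag_le_group hh⟩,
    Subgroup.mem_subgroupOf.2 hh, Subtype.ext e⟩

omit [Finite F] in
theorem diag_fix {n h : D.group F} (hn : n ∈ (S.bnPair F).N)
    (hh : h ∈ (D.diagonalSubgroup F).subgroupOf (D.group F)) :
    n⁻¹ * h * n ∈ (S.bnPair F).B := by
  show ((n⁻¹ * h * n : D.group F) : GL D.Idx F) ∈ D.borelSubgroup F
  push_cast
  have := S.mono_conj_diag (inv_mem (Subgroup.mem_subgroupOf.1 hn)) (Subgroup.mem_subgroupOf.1 hh)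
  rw [inv_inv] at this
  exact Subgroup.mem_sup_right this

/-- `U` is transitive on the longest cell. -/
theorem top_orbit [Finite (W (S.bnPair F))] {I : Finset (Fin D.rank)} {n : D.group F}
    {hn : n ∈ (S.bnPair F).N} (e : CfsgLib.BNPair.mk (S.bnPair F) n hn = w0 (S.bnPair F) (S.fS F) I)
    (x : Top (S.bnPair F) (S.fS F) I) :
    ∃ u ∈ (D.posUnipotent F).subgroupOf (D.group F),
      x.1 = u • ((n : D.group F) : D.group F ⧸ (S.bnPair F).B) := by
  obtain ⟨g, hg, hc⟩ := exists_rep (S.bnPair F) x.1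
  rw [x.2, ← e, cell_mk, DoubleCoset.mem_doubleCoset] at hc
  obtain ⟨b, hb, b', hb', rfl⟩ := hc
  obtain ⟨u, hu, h, hh, rfl⟩ := S.mem_borel_iff' hb
  refine ⟨u, hu, ?_⟩
  rw [← hg]
  show _ = ((u * n : D.group F) : D.group F ⧸ (S.bnPair F).B)
  rw [eq_comm, QuotientGroup.eq]
  have := mul_mem (S.diag_fix hn hh) hb'
  convert this using 1
  group

theorem fix_top (G : Geo D) [Finite (W (S.bnPair F))] (I : Finset (Fin D.rank)) :
    ∀ u ∈ (D.posUnipotent F).subgroupOf (D.group F), ∀ x : Top (S.bnPair F) (S.fS F) I,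
      u • x.1 = x.1 ↔ u ∈ radIn F I := by
  intro u hu x
  obtain ⟨n, hn, e, hstab⟩ := S.exists_top_rep (F := F) G I
  obtain ⟨v, hv, hx⟩ := S.top_orbit e x
  have hP : ∀ {y}, y ∈ (D.posUnipotent F).subgroupOf (D.group F) →
      y ∈ par (S.bnPair F) (S.fS F) I := fun hy =>
    (le_sup_left : (S.bnPair F).B ≤ par (S.bnPair F) (S.fS F) I)
      (Subgroup.mem_subgroupOf.2 (Subgroup.mem_sup_left (Subgroup.mem_subgroupOf.1 hy)))
  rw [hx, smul_smul]
  show ((u * v * n : D.group F) : D.group F ⧸ (S.bnPair F).B) = ((v * n : D.group F) : _) ↔ _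
  rw [eq_comm, QuotientGroup.eq, show (v * n)⁻¹ * (u * v * n) = n⁻¹ * (v⁻¹ * u * v) * n by group,
    hstab _ (mul_mem (mul_mem (inv_mem hv) hu) hv)]
  constructor
  · intro h
    have := S.rad_conj G I v (hP hv) _ h
    rwa [show v * (v⁻¹ * u * v) * v⁻¹ = u by group] at this
  · intro h
    have := S.rad_conj G I v⁻¹ (hP (inv_mem hv)) _ h
    rwa [inv_inv] at this

theorem card_top (G : Geo D) [Finite (W (S.bnPair F))] (I : Finset (Fin D.rank)) :
    Nat.card (radIn (D := D) F I) * Nat.card (Top (S.bnPair F) (S.fS F) I) =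
      Nat.card ((D.posUnipotent F).subgroupOf (D.group F)) := by
  obtain ⟨n, hn, e, hstab⟩ := S.exists_top_rep (F := F) G I
  set P := S.bnPair F
  set U := (D.posUnipotent F).subgroupOf (D.group F)
  set R := (radIn (D := D) F I).subgroupOf U
  have hty : ∀ u ∈ U, tyQ P (u • ((n : D.group F) : D.group F ⧸ P.B)) = w0 P (S.fS F) I := by
    intro u hu
    rw [tyQ_smul P (Subgroup.mem_subgroupOf.2 (Subgroup.mem_sup_left (Subgroup.mem_subgroupOf.1 hu))),
      tyQ_mk P (rep_mem_cell P hn), e]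
  have hstab' : ∀ u v : U, (u : D.group F) • ((n : D.group F) : D.group F ⧸ P.B) =
      (v : D.group F) • ((n : D.group F) : D.group F ⧸ P.B) ↔ u⁻¹ * v ∈ R := by
    intro u v
    rw [Subgroup.mem_subgroupOf, ← hstab _ (u⁻¹ * v).2]
    show ((u * n : D.group F) : D.group F ⧸ P.B) = ((v * n : D.group F) : _) ↔ _
    rw [QuotientGroup.eq]
    push_cast
    simp only [_root_.mul_inv_rev, mul_assoc]
  let g : U ⧸ R → Top P (S.fS F) I := fun q => ⟨(q.out : D.group F) • _, hty _ q.out.2⟩
  have hg : Function.Bijective g := by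
    refine ⟨fun q q' h => ?_, fun x => ?_⟩
    · have := (hstab' _ _).1 (congrArg Subtype.val h)
      rw [← q.out_eq, ← q'.out_eq]
      exact QuotientGroup.eq.2 this
    · obtain ⟨u, hu, hx⟩ := S.top_orbit e x
      refine ⟨((⟨u, hu⟩ : U) : U ⧸ R), Subtype.ext (Eq.trans ?_ hx.symm)⟩
      obtain ⟨r, hr⟩ := QuotientGroup.mk_out_eq_mul R (⟨u, hu⟩ : U)
      refine (hstab' _ ⟨u, hu⟩).2 ?_
      rw [hr, _root_.mul_inv_rev, mul_assoc, inv_mul_cancel, mul_one]
      exact inv_mem r.2
  rw [← Nat.card_eq_of_bijective g hg, Subgroup.card_eq_card_quotient_mul_card_subgroup R,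
    mul_comm, Nat.card_congr (Subgroup.subgroupOfEquivOfLe (S.rad_le_par G I)).toEquiv]

omit [Finite F] in
/-- The Steinberg alternating sum is the alternating sum of the BN-pair. -/
theorem steinberg_eq (g : D.group F) :
    D.steinbergCharacter F g = (alt (S.bnPair F) (S.fS F) Finset.univ g : ℂ) := by
  rw [ChevalleyDatum.steinbergCharacter, alt, Int.cast_sum]
  refine (Finset.sum_nbij' (i := natSet) (j := fun J => J.preimage Fin.val Fin.val_injective.injOn)
    ?_ ?_ ?_ ?_ ?_).symm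
  · intro K _
    simp [Finset.subset_iff]
  · intro J _
    simp
  · intro K _
    ext i
    simp [natSet, Fin.val_inj]
  · intro J hJ
    ext q
    rw [Finset.mem_powerset] at hJ
    simp only [natSet, Finset.mem_map, Finset.mem_preimage, Fin.valEmbedding_apply]
    exact ⟨fun ⟨i, hi, e⟩ => e ▸ hi, fun hq => ⟨⟨q, Finset.mem_range.1 (hJ hq)⟩, hq, rfl⟩⟩
  · intro K _
    rw [fixIn_top _ _ S.par_univ, Finset.card_map, S.par_eq, Cfsg.fixedPointCharacter]
    push_cast
    rfl

/-- `St(1) = |U|`. -/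
theorem steinberg_one (G : Geo D) :
    D.steinbergCharacter F 1 = (Nat.card F : ℂ) ^ (D.nroots / 2) := by
  haveI := finite_group (D := D) (F := F)
  haveI := S.finite_W (F := F)
  rw [S.steinberg_eq, alt_eq _ _ _ (one_mem _),
    Nat.card_congr (Equiv.subtypeUnivEquiv fun x => one_smul _ _)]
  have h := S.card_top (F := F) G Finset.univ
  rw [(S.radical_univ).resolve_right (not_not.2 G), Subgroup.card_bot, one_mul,
    Nat.card_congr (Subgroup.subgroupOfEquivOfLe S.pos_le_group).toEquiv, S.card_pos] at h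
  rw [h]; push_cast; rfl

/-- The restriction to `B` is the permutation character on `B / H`. -/
theorem steinberg_borel (G : Geo D) (b : ↥((D.borelSubgroup F).subgroupOf (D.group F))) :
    D.steinbergCharacter F b =
      Cfsg.fixedPointCharacter (((D.diagonalSubgroup F).subgroupOf (D.group F)).subgroupOf
        ((D.borelSubgroup F).subgroupOf (D.group F))) b := by
  haveI := finite_group (D := D) (F := F)
  haveI := S.finite_W (F := F)
  rw [S.steinberg_eq, alt_eq _ _ _ b.2, Cfsg.fixedPointCharacter, Int.cast_natCast]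
  congr 1
  obtain ⟨n, hn, e, hstab⟩ := S.exists_top_rep (F := F) G Finset.univ
  rw [(S.radical_univ).resolve_right (not_not.2 G)] at hstab
  set P := S.bnPair F
  set B := (D.borelSubgroup F).subgroupOf (D.group F)
  set H := ((D.diagonalSubgroup F).subgroupOf (D.group F)).subgroupOf B
  set o : D.group F ⧸ P.B := ((n : D.group F) : D.group F ⧸ P.B)
  have hty : ∀ c : B, tyQ P ((c : D.group F) • o) = w0 P (S.fS F) Finset.univ := fun c => by
    rw [tyQ_smul P c.2, tyQ_mk P (rep_mem_cell P hn), e]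
  have hH : ∀ c : B, c • o = o ↔ c ∈ H := by
    intro c
    show (((c : D.group F) * n : D.group F) : D.group F ⧸ P.B) = ((n : D.group F) : _) ↔ _
    rw [eq_comm, QuotientGroup.eq, Subgroup.mem_subgroupOf]
    obtain ⟨u, hu, h, hh, eb⟩ := S.mem_borel_iff' c.2
    rw [eb, show n⁻¹ * (u * h * n) = n⁻¹ * u * n * (n⁻¹ * h * n) by group,
      Subgroup.mul_mem_cancel_right _ (S.diag_fix hn hh), hstab u hu, Subgroup.mem_bot]
    refine ⟨fun hu1 => by rw [hu1, one_mul]; exact hh, fun hm => ?_⟩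
    have hu' : ((u : D.group F) : GL D.Idx F) ∈ D.posUnipotent F ⊓ D.diagonalSubgroup F :=
      Subgroup.mem_inf.2 ⟨Subgroup.mem_subgroupOf.1 hu, by
        have := mul_mem (Subgroup.mem_subgroupOf.1 hm) (inv_mem (Subgroup.mem_subgroupOf.1 hh))
        rwa [← Subgroup.coe_inv, ← Subgroup.coe_mul, mul_inv_cancel_right] at this⟩
    rw [S.pos_inf_diag, Subgroup.mem_bot] at hu'
    exact Subtype.ext hu'
  refine (card_fixedBy_orbit H o hH (fun x => tyQ P x = w0 P (S.fS F) Finset.univ)
    (fun x => ⟨fun hx => ?_, fun ⟨c, hc⟩ => hc ▸ hty c⟩) _).symm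
  obtain ⟨u, hu, hx'⟩ := S.top_orbit e ⟨x, hx⟩
  exact ⟨⟨u, Subgroup.mem_subgroupOf.2 (Subgroup.mem_sup_left (Subgroup.mem_subgroupOf.1 hu))⟩,
    hx'.symm⟩

/-- The number of unipotent elements. -/
theorem card_unipotent (G : Geo D) (p : ℕ) [Fact p.Prime] [CharP F p] :
    Nat.card {g : D.group F // ∃ k : ℕ, orderOf g = p ^ k} =
      Nat.card F ^ (2 * (D.nroots / 2)) := by
  haveI := finite_group (D := D) (F := F)
  haveI := S.finite_W (F := F)
  haveI := Fintype.ofFinite F
  set P := S.bnPair F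
  set U := (D.posUnipotent F).subgroupOf (D.group F)
  have hUB : U ≤ P.B := fun g hg =>
    Subgroup.mem_subgroupOf.2 (Subgroup.mem_sup_left (Subgroup.mem_subgroupOf.1 hg))
  have hcU : Nat.card U = Nat.card F ^ (D.nroots / 2) := by
    rw [Nat.card_congr (Subgroup.subgroupOfEquivOfLe S.pos_le_group).toEquiv, S.card_pos]
  obtain ⟨e, -, he⟩ := FiniteField.card F p
  have hU : IsPGroup p U := IsPGroup.of_card (n := (e : ℕ) * (D.nroots / 2)) (by
    rw [hcU, pow_mul, Nat.card_eq_fintype_card, he])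
  have h := card_pEl_par P (S.fS F) p hUB hU (S.not_dvd_index_pos p) (fun I => radIn F I)
    (S.rad_le_par G) (S.rad_conj G) (S.fix_top G) (S.card_top G) Finset.univ
  have hT := S.card_top (F := F) G Finset.univ
  rw [(S.radical_univ).resolve_right (not_not.2 G), Subgroup.card_bot, one_mul] at hT
  rw [hT, hcU, ← pow_add, ← two_mul] at h
  rw [← h]
  exact Nat.card_congr (Equiv.subtypeEquivRight fun g => by
    rw [S.par_univ]; exact ⟨fun hg => ⟨trivial, hg⟩, And.right⟩)

end Sys

end CfsgLib.Chev
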