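import Cfsg.Agent.Chev.SteinbergCells
import Cfsg.Agent.BNSteinberg.Norm
import Cfsg.Agent.BNSteinberg.Projective

/-!
# The Steinberg lattice

The translates by `U` of `e = Σ_w (-1)^{l(w)} [n_w B]` span a lattice stable under the group; it is
free over `U`.  Its character is the alternating sum of the parabolic permutation characters, which
is therefore irreducible and vanishes at the `p`-singular elements.
-/

set_option autoImplicit false

namespace CfsgLib.Chev

open Cfsg.Lie Matrix
open CfsgLib.BNPair CfsgLib.BNSteinberg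

universe u

section Abstract

variable {G : Type*} [Group G] (P : Cfsg.BNPair G)

/-- The point `n_w B`. -/
noncomputable def pt (w : W P) : G ⧸ P.B := (((exists_mk P w).choose : G) : G ⧸ P.B)

open Classical in
/-- The vector `e = Σ_w (-1)^{l(w)} [n_w B]`. -/
noncomputable def evec (x : G ⧸ P.B) : ℤ := if x = pt P (tyQ P x) then (-1) ^ len P (tyQ P x) else 0

/-- The translate `g e`. -/
noncomputable def gvec (g : G) (x : G ⧸ P.B) : ℤ := evec P (g⁻¹ • x)

theorem pt_mk {n : G} (hn : n ∈ P.N) : pt P (mk P n hn) = (n : G ⧸ P.B) := by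
  obtain ⟨h, e⟩ := (exists_mk P (mk P n hn)).choose_spec
  exact QuotientGroup.eq.2 ((mk_eq_iff P h hn).1 e)

theorem tyQ_pt (w : W P) : tyQ P (pt P w) = w := by
  obtain ⟨n, hn, rfl⟩ := exists_mk P w
  rw [pt_mk, tyQ_mk P (rep_mem_cell P hn)]

theorem smul_pt {m : G} (hm : m ∈ P.N) (w : W P) : m • pt P w = pt P (mk P m hm * w) := by
  obtain ⟨n, hn, rfl⟩ := exists_mk P w
  rw [mk_mul, pt_mk, pt_mk]
  rfl

theorem evec_pt (w : W P) : evec P (pt P w) = (-1) ^ len P w := by
  rw [evec, tyQ_pt, if_pos rfl]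

theorem evec_eq_zero {x : G ⧸ P.B} (h : x ≠ pt P (tyQ P x)) : evec P x = 0 := if_neg h

theorem evec_eq_sum [Fintype (W P)] [DecidableEq (G ⧸ P.B)] (x : G ⧸ P.B) :
    evec P x = ∑ w : W P, if pt P w = x then (-1) ^ len P w else 0 := by
  by_cases h : x = pt P (tyQ P x)
  · rw [Finset.sum_eq_single (tyQ P x), if_pos h.symm, evec, if_pos h]
    · intro w _ hw
      refine if_neg fun e => hw ?_
      rw [← e, tyQ_pt]
    · simp
  · rw [evec_eq_zero P h, Finset.sum_eq_zero]
    intro w _
    refine if_neg fun e => h ?_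
    rw [← e, tyQ_pt]

theorem gvec_mul (g g' : G) (x : G ⧸ P.B) : gvec P (g * g') x = gvec P g' (g⁻¹ • x) := by
  rw [gvec, gvec, _root_.mul_inv_rev, mul_smul]

theorem evec_smul_N {m : G} (hm : m ∈ P.N) {k : ℕ}
    (hk : ∀ w, ((-1 : ℤ)) ^ len P (mk P m hm * w) = (-1) ^ k * (-1) ^ len P w) (x : G ⧸ P.B) :
    evec P (m • x) = (-1) ^ k * evec P x := by
  by_cases h : x = pt P (tyQ P x)
  · conv_lhs => rw [h, smul_pt P hm, evec_pt, hk]
    rw [evec, if_pos h]
  · rw [evec_eq_zero P h, mul_zero, evec_eq_zero]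
    intro e
    apply h
    have e2 : x = pt P ((mk P m hm)⁻¹ * tyQ P (m • x)) := by
      rw [mk_inv, ← smul_pt P (inv_mem hm), ← e, inv_smul_smul]
    conv_rhs => rw [e2, tyQ_pt]
    exact e2

theorem neg_one_pow_σ (s : P.S) (w : W P) :
    ((-1 : ℤ)) ^ len P (σ P s * w) = (-1) ^ 1 * (-1) ^ len P w := by
  rcases len_σ_mul P s w with h | h
  · rw [h, pow_succ]; ring
  · rw [← h, pow_succ]; ring

theorem evec_smul_S (s : P.S) (x : G ⧸ P.B) : evec P ((s : G) • x) = - evec P x := by
  rw [evec_smul_N P (P.subset s.2) (k := 1) (fun w => neg_one_pow_σ P s w)]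
  ring

theorem evec_smul_H {h : G} (hB : h ∈ P.B) (hN : h ∈ P.N) (x : G ⧸ P.B) :
    evec P (h • x) = evec P x := by
  rw [evec_smul_N P hN (k := 0) (fun w => by rw [(mk_eq_one_iff P hN).2 hB, one_mul]; simp)]
  simp

end Abstract

namespace Sys

variable {D : ChevalleyDatum} (S : Sys.{u} D) {F : Type u} [Field F]

/-- `x_{p_i}(t)` in the group. -/
def xSG (F : Type u) [Field F] (q : ℕ) (t : F) : D.group F :=
  ⟨S.xU (D.simple q) t, S.xU_mem_group _ _⟩

variable (F) in
/-- The top point `n_{w₀} B`. -/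
noncomputable def topPt [Finite (W (S.bnPair F))] : D.group F ⧸ (S.bnPair F).B :=
  pt (S.bnPair F) (w0 (S.bnPair F) (S.fS F) Finset.univ)

variable (F) in
/-- The sign of the top point. -/
noncomputable def topSign [Finite (W (S.bnPair F))] : ℤ :=
  (-1) ^ len (S.bnPair F) (w0 (S.bnPair F) (S.fS F) Finset.univ)

variable (F) in
/-- `U` inside the group. -/
abbrev UG (_S : Sys.{u} D) : Subgroup (D.group F) := (D.posUnipotent F).subgroupOf (D.group F)

/-- The matrix of `g` on the lattice, in the basis `u e`. -/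
noncomputable def stMat [Finite (W (S.bnPair F))] (g : D.group F) :
    Matrix (UG F S) (UG F S) ℤ :=
  Matrix.of fun v u => S.topSign F * gvec (S.bnPair F) (g * u) ((v : D.group F) • S.topPt F)

include S

theorem UG_le_B : UG F S ≤ (S.bnPair F).B := fun _ hg =>
  Subgroup.mem_subgroupOf.2 (Subgroup.mem_sup_left (Subgroup.mem_subgroupOf.1 hg))

theorem xSG_mem_U {q : ℕ} (hq : q < D.rank) (t : F) : S.xSG F q t ∈ UG F S :=
  Subgroup.mem_subgroupOf.2 (S.xU_mem_posUnipotent (S.simple_pos q hq).1 (S.simple_lt hq) t)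

theorem pos_eq_genBy : D.posUnipotent F = S.genBy F (fun _ => True) := by
  refine le_antisymm ?_ (S.genBy_le_pos _)
  rw [ChevalleyDatum.posUnipotent, Subgroup.closure_le]
  rintro g ⟨r, t, hr, hg⟩
  rw [S.eq_xU hg]
  exact S.xU_mem_genBy ((S.isPos_iff r).1 hr).1 ((S.isPos_iff r).1 hr).2 trivial t

/-- For each `w`, the root group `X_p` fixes `n_w B` or `n_{σw} B`. -/
theorem fix_pt_or (i : Fin D.rank) (w : W (S.bnPair F)) :
    (∀ t, S.xSG F i t • pt (S.bnPair F) w = pt (S.bnPair F) w) ∨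
      ∀ t, S.xSG F i t • pt (S.bnPair F) (σ (S.bnPair F) (S.fS F i) * w) =
        pt (S.bnPair F) (σ (S.bnPair F) (S.fS F i) * w) := by
  obtain ⟨n, hn, rfl⟩ := exists_mk (S.bnPair F) w
  obtain ⟨L, hL, h, hh, e⟩ := S.mem_mono_iff.1 (Subgroup.mem_subgroupOf.1 (inv_mem hn))
  have hv : S.Acts ((n⁻¹ : D.group F) : GL D.Idx F) (S.wprod L) := by
    rw [e]; simpa using S.acts_mul (S.acts_diag hh) (S.acts_nw (F := F) hL)
  set p : Fin D.nroots := ⟨D.simple i, S.simple_lt i.2⟩
  -- a representative whose inverse sends `p` to a positive root gives a fixed point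
  have key : ∀ (m : D.group F) (hm : m ∈ (S.bnPair F).N) (v : Equiv.Perm (Fin D.nroots)),
      S.Acts ((m⁻¹ : D.group F) : GL D.Idx F) v → D.nroots / 2 ≤ (v p : ℕ) →
      ∀ t, S.xSG F i t • pt (S.bnPair F) (CfsgLib.BNPair.mk (S.bnPair F) m hm) =
        pt (S.bnPair F) (CfsgLib.BNPair.mk (S.bnPair F) m hm) := by
    intro m hm v hv hpos t
    rw [pt_mk]
    show ((S.xSG F i t * m : D.group F) : D.group F ⧸ (S.bnPair F).B) = _
    rw [eq_comm, QuotientGroup.eq]
    show ((m⁻¹ * (S.xSG F i t * m) : D.group F) : GL D.Idx F) ∈ D.borelSubgroup F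
    simp only [Subgroup.coe_mul, Subgroup.coe_inv]
    obtain ⟨c, hc⟩ := hv p
    have hct := hc t
    rw [Subgroup.coe_inv, inv_inv, mul_assoc] at hct
    show _ * (S.xU (D.simple i) t * _) ∈ _
    rw [hct]
    exact Subgroup.mem_sup_left (S.xU_mem_posUnipotent hpos (Fin.is_lt _) _)
  by_cases hpos : D.nroots / 2 ≤ (S.wprod L p : ℕ)
  · exact Or.inl (key n hn _ hv hpos)
  right
  have hs : S.nG F i ∈ (S.bnPair F).N := (S.bnPair F).subset (S.fS F i).2
  rw [show σ (S.bnPair F) (S.fS F i) = CfsgLib.BNPair.mk (S.bnPair F) (S.nG F i) hs from rfl, mk_mul]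
  refine key _ _ (S.wprod L * S.refl i) ?_ ?_
  · have hsinv : S.Acts ((S.nU (D.simple i) (1 : F))⁻¹) (S.refl i) := by
      rw [S.nU_inv_simple i.2]
      simpa using S.acts_mul (S.acts_diag (S.dg_mem_diag (S.simple_lt i.2) (-1 : Fˣ)))
        (S.acts_nU (F := F) i.2)
    have := S.acts_mul hv hsinv
    simpa [coe_nG] using this
  · rw [Equiv.Perm.mul_apply, show S.refl i p = ⟨D.neg (D.simple i), S.neg_lt (S.simple_lt i.2)⟩ from
        Fin.ext (by rw [S.refl_apply i.2]; exact S.pi_simple i i.2),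
      S.wprod_neg hL p _ rfl, S.neg_eq _ (Fin.is_lt _)]
    have := S.even_nroots
    omega

/-- The rank one relation. -/
theorem gvec_rel [Finite F] (i : Fin D.rank) {t : F} (ht : t ≠ 0) (y : D.group F ⧸ (S.bnPair F).B) :
    gvec (S.bnPair F) (S.nG F i * S.xSG F i t) y =
      gvec (S.bnPair F) (S.xSG F i (-t)⁻¹) y - gvec (S.bnPair F) 1 y := by
  classical
  haveI := finite_group (D := D) (F := F)
  haveI := S.finite_W (F := F)
  haveI := Fintype.ofFinite (W (S.bnPair F))
  set n := S.nG F i with hn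
  set x := S.xSG F i t with hx
  set c := (-t)⁻¹ with hc
  have hi := i.2
  obtain ⟨h, hh, e⟩ := S.xU_neg_eq hi (neg_ne_zero.2 ht)
  let hG : D.group F := ⟨h, S.diag_le_group hh⟩
  have hG2 : n * n ∈ (S.bnPair F).B ∧ n * n ∈ (S.bnPair F).N := ⟨(S.bnPair F).sq_mem _ (S.fS F i).2,
    mul_mem ((S.bnPair F).subset (S.fS F i).2) ((S.bnPair F).subset (S.fS F i).2)⟩
  have hGd : hG ∈ (S.bnPair F).B ∧ hG ∈ (S.bnPair F).N :=
    ⟨Subgroup.mem_subgroupOf.2 (Subgroup.mem_sup_right hh),
      Subgroup.mem_subgroupOf.2 (S.diag_le_mono hh)⟩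
  have erel : n * x = S.xSG F i c * hG * n * S.xSG F i c * n := by
    apply Subtype.ext
    simp only [Subgroup.coe_mul, coe_nG, hn, hx, hG]
    show S.nU (D.simple i) (1 : F) * S.xU (D.simple i) t =
      S.xU (D.simple i) c * h * S.nU (D.simple i) 1 * S.xU (D.simple i) c * S.nU (D.simple i) 1
    have h1 := S.nU_conj_xp (F := F) hi t
    rw [e, mul_inv_eq_iff_eq_mul] at h1
    rw [h1]
    simp only [mul_assoc, hc]
  -- the fixed pairs
  have hT : ∀ w, ((if n • x • pt (S.bnPair F) w = y then (1 : ℤ) else 0) + (if pt (S.bnPair F) w = y then 1 else 0) -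
      (if S.xSG F i c • pt (S.bnPair F) w = y then 1 else 0)) =
      ((if n • x • pt (S.bnPair F) (σ (S.bnPair F) (S.fS F i) * w) = y then (1 : ℤ) else 0) +
        (if pt (S.bnPair F) (σ (S.bnPair F) (S.fS F i) * w) = y then 1 else 0) -
      (if S.xSG F i c • pt (S.bnPair F) (σ (S.bnPair F) (S.fS F i) * w) = y then 1 else 0)) := by
    have main : ∀ v, (∀ s, S.xSG F i s • pt (S.bnPair F) v = pt (S.bnPair F) v) →
        n • x • pt (S.bnPair F) v = pt (S.bnPair F) (σ (S.bnPair F) (S.fS F i) * v) ∧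
        n • x • pt (S.bnPair F) (σ (S.bnPair F) (S.fS F i) * v) = S.xSG F i c • pt (S.bnPair F) (σ (S.bnPair F) (S.fS F i) * v) := by
      intro v hv
      have hσv : n • pt (S.bnPair F) v = pt (S.bnPair F) (σ (S.bnPair F) (S.fS F i) * v) :=
        smul_pt (S.bnPair F) ((S.bnPair F).subset (S.fS F i).2) v
      have hσv' : n • pt (S.bnPair F) (σ (S.bnPair F) (S.fS F i) * v) = pt (S.bnPair F) v := by
        have h3 := smul_pt (S.bnPair F) ((S.bnPair F).subset (S.fS F i).2) (σ (S.bnPair F) (S.fS F i) * v)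
        rw [show CfsgLib.BNPair.mk (S.bnPair F) _ ((S.bnPair F).subset (S.fS F i).2) = σ (S.bnPair F) (S.fS F i) from rfl,
          σ_cancel] at h3
        exact h3
      have hfixH : ∀ {d}, d ∈ (S.bnPair F).B ∧ d ∈ (S.bnPair F).N → ∀ w, d • pt (S.bnPair F) w = pt (S.bnPair F) w := fun {d} hd w => by
        rw [smul_pt (S.bnPair F) hd.2, (mk_eq_one_iff (S.bnPair F) hd.2).2 hd.1, one_mul]
      refine ⟨by rw [hx, hv, hσv], ?_⟩
      rw [← mul_smul, erel]
      simp only [mul_smul]
      rw [hσv', hv, hσv, hfixH hGd]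
    intro w
    rcases S.fix_pt_or i w with hw | hw
    · obtain ⟨h1, h2⟩ := main w hw
      rw [h1, h2, hw]; ring
    · obtain ⟨h1, h2⟩ := main _ hw
      rw [σ_cancel] at h1 h2
      rw [h1, h2, hw]; ring
  have hexp : ∀ g : D.group F, gvec (S.bnPair F) g y =
      ∑ w : W (S.bnPair F), (-1 : ℤ) ^ len (S.bnPair F) w * if g • pt (S.bnPair F) w = y then 1 else 0 := by
    intro g
    rw [gvec, evec_eq_sum]
    refine Finset.sum_congr rfl fun w _ => ?_
    rw [mul_ite, mul_one, mul_zero]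
    exact if_congr (eq_inv_smul_iff) rfl rfl
  set T := fun w => ((if n • x • pt (S.bnPair F) w = y then (1 : ℤ) else 0) + (if pt (S.bnPair F) w = y then 1 else 0) -
      (if S.xSG F i c • pt (S.bnPair F) w = y then 1 else 0)) with hTdef
  have hz : ∑ w : W (S.bnPair F), (-1 : ℤ) ^ len (S.bnPair F) w * T w = 0 := by
    have h2 : ∑ w : W (S.bnPair F), (-1 : ℤ) ^ len (S.bnPair F) w * T w = - ∑ w : W (S.bnPair F), (-1 : ℤ) ^ len (S.bnPair F) w * T w := by
      conv_lhs => rw [← Equiv.sum_comp (Equiv.mulLeft (σ (S.bnPair F) (S.fS F i)))]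
      rw [← Finset.sum_neg_distrib]
      refine Finset.sum_congr rfl fun w _ => ?_
      rw [Equiv.coe_mulLeft, neg_one_pow_σ]
      simp only [hTdef]
      rw [← hT w]; ring
    omega
  simp only [hTdef, mul_add, mul_sub, Finset.sum_add_distrib, Finset.sum_sub_distrib] at hz
  rw [hexp, hexp, hexp]
  simp only [mul_smul, one_smul]
  linarith

variable [Finite F] [Finite (W (S.bnPair F))]

theorem gvec_U (G : Geo D) (u v : UG F S) [Decidable (u = v)] :
    S.topSign F * gvec (S.bnPair F) (u : D.group F) ((v : D.group F) • S.topPt F) =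
      if u = v then 1 else 0 := by
  have hsq : S.topSign F * S.topSign F = 1 := by
    rw [topSign, ← pow_add, ← two_mul, pow_mul]; simp
  rw [gvec, smul_smul]
  split_ifs with h
  · subst h
    rw [inv_mul_cancel, one_smul, topPt, evec_pt]
    exact hsq
  · rw [evec_eq_zero, mul_zero]
    intro e
    apply h
    have hmem : (u : D.group F)⁻¹ * v ∈ UG F S := mul_mem (inv_mem u.2) v.2
    rw [tyQ_smul _ (S.UG_le_B hmem), topPt, tyQ_pt] at e
    have h1 := (S.fix_top G Finset.univ _ hmem ⟨S.topPt F, tyQ_pt _ _⟩).1 e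
    rw [(S.radical_univ).resolve_right (not_not.2 G), Subgroup.mem_bot, inv_mul_eq_one] at h1
    exact Subtype.ext h1

set_option maxHeartbeats 1600000 in
theorem gvec_span (G : Geo D) [Fintype (UG F S)] (g : D.group F) :
    ∀ u : UG F S, ∃ a : UG F S → ℤ, ∀ x,
      gvec (S.bnPair F) (g * u) x = ∑ v, a v * gvec (S.bnPair F) (v : D.group F) x := by
  classical
  let Q : D.group F → Prop := fun g => ∀ u : UG F S, ∃ a : UG F S → ℤ, ∀ x,
    gvec (S.bnPair F) (g * u) x = ∑ v, a v * gvec (S.bnPair F) (v : D.group F) x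
  have hmul : ∀ {g g'}, Q g → Q g' → Q (g * g') := by
    intro g g' hg hg' u
    obtain ⟨a, ha⟩ := hg' u
    choose b hb using hg
    refine ⟨fun v => ∑ w, a w * b w v, fun x => ?_⟩
    rw [mul_assoc, gvec_mul, ha]
    simp only [← gvec_mul, hb, Finset.mul_sum, Finset.sum_mul, mul_assoc]
    rw [Finset.sum_comm]
  have hU : ∀ w : UG F S, Q (w : D.group F) := fun w u =>
    ⟨Pi.single (w * u) 1, fun x => by
      rw [Finset.sum_eq_single (w * u)]
      · simp
      · intro v _ hv; simp [hv]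
      · simp⟩
  have hH : ∀ h : D.group F, h ∈ (D.diagonalSubgroup F).subgroupOf (D.group F) → Q h := by
    intro h hh u
    have hh' := Subgroup.mem_subgroupOf.1 hh
    have hu' : h * u * h⁻¹ ∈ UG F S := by
      have h1 : ((u : D.group F) : GL D.Idx F) ∈ D.posUnipotent F := Subgroup.mem_subgroupOf.1 u.2
      refine Subgroup.mem_subgroupOf.2 ?_
      simp only [Subgroup.coe_mul, Subgroup.coe_inv]
      rw [S.pos_eq_genBy] at h1 ⊢
      exact S.diag_conj_genBy (fun _ => True) hh' h1
    refine ⟨Pi.single ⟨_, hu'⟩ 1, fun x => ?_⟩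
    rw [Finset.sum_eq_single ⟨_, hu'⟩ (fun v _ hv => by simp [hv]) (by simp), Pi.single_eq_same,
      one_mul]
    show gvec (S.bnPair F) (h * u) x = gvec (S.bnPair F) (h * u * h⁻¹) x
    rw [gvec, gvec, show (h * u * h⁻¹)⁻¹ = h * (h * (u : D.group F))⁻¹ by group, mul_smul,
      evec_smul_H (S.bnPair F) (Subgroup.mem_subgroupOf.2 (Subgroup.mem_sup_right hh'))
        (Subgroup.mem_subgroupOf.2 (S.diag_le_mono hh'))]
  have hN : ∀ i : Fin D.rank, Q (S.nG F i) := by
    intro i u
    obtain ⟨a, ha, t, hu⟩ := S.exists_up_split i.2 (Subgroup.mem_subgroupOf.1 u.2)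
    let aG : D.group F := ⟨a, S.pos_le_group (S.genBy_le_pos _ ha)⟩
    have ha' : S.nG F i * aG * (S.nG F i)⁻¹ ∈ UG F S := by
      refine Subgroup.mem_subgroupOf.2 ?_
      exact S.genBy_le_pos _ (S.nU_conj_upSub i.2 ha)
    set a' : UG F S := ⟨_, ha'⟩ with ha'def
    have eu : S.nG F i * u = (a' : D.group F) * (S.nG F i * S.xSG F i t) := by
      rw [ha'def]
      apply Subtype.ext
      simp only [Subgroup.coe_mul, Subgroup.coe_inv, aG, xSG, hu]
      group
    rw [eu]
    by_cases ht : t = 0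
    · refine ⟨Pi.single a' (-1), fun x => ?_⟩
      rw [Finset.sum_eq_single a' (fun v _ hv => by simp [hv]) (by simp), Pi.single_eq_same,
        neg_one_mul]
      have e0 : S.xSG F i t = 1 := Subtype.ext (by rw [ht]; exact S.xU_zero _)
      rw [e0, mul_one, gvec, gvec, show (a' : D.group F)⁻¹ • x =
        ((S.fS F i).1) • (((a' : D.group F) * S.nG F i)⁻¹ • x) by
          rw [smul_smul]
          show _ = (S.nG F i * _) • x
          congr 1; group, evec_smul_S]
      ring
    · refine ⟨Pi.single (a' * ⟨_, S.xSG_mem_U i.2 (-t)⁻¹⟩) 1 + Pi.single a' (-1), fun x => ?_⟩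
      simp only [Pi.add_apply, add_mul, Finset.sum_add_distrib]
      rw [Finset.sum_eq_single (a' * ⟨_, S.xSG_mem_U i.2 (-t)⁻¹⟩) (fun v _ hv => by
          rw [Pi.single_eq_of_ne hv, zero_mul]) (by simp), Finset.sum_eq_single a' (fun v _ hv => by
          rw [Pi.single_eq_of_ne hv, zero_mul]) (by simp),
        Pi.single_eq_same, Pi.single_eq_same, gvec_mul, S.gvec_rel i ht, one_mul, Subgroup.coe_mul,
        gvec_mul (S.bnPair F) (a' : D.group F) (S.xSG F i _), ← gvec_mul (S.bnPair F) (a' : D.group F) 1, mul_one]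
      ring
  have hB : ∀ b ∈ (S.bnPair F).B, Q b := by
    intro b hb
    obtain ⟨u, hu, h, hh, rfl⟩ := S.mem_borel_iff' hb
    exact hmul (hU ⟨u, hu⟩) (hH h hh)
  obtain ⟨b, hb, n, hn, b', hb', e⟩ := S.exists_bnb g.2
  obtain ⟨L, hL, h, hh, rfl⟩ := S.mem_mono_iff.1 hn
  have hw : ∀ L : List (Fin D.rank), Q (L.map fun i : Fin D.rank => S.nG F i).prod := by
    intro L
    induction L with
    | nil => simpa using hU 1
    | cons i L ih => rw [List.map_cons, List.prod_cons]; exact hmul (hN i) ih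
  obtain ⟨L', rfl⟩ : ∃ L' : List (Fin D.rank), L'.map (fun j : Fin D.rank => (j : ℕ)) = L :=
    ⟨L.pmap Fin.mk hL, by simp [List.map_pmap, List.pmap_eq_map]⟩
  obtain ⟨-, -, e'⟩ := S.wd_word (F := F) L'
  have eg : g = ⟨b, S.borel_le_group hb⟩ * (⟨h, S.diag_le_group hh⟩ *
      (L'.map fun i : Fin D.rank => S.nG F i).prod) * ⟨b', S.borel_le_group hb'⟩ :=
    Subtype.ext (by simp only [Subgroup.coe_mul, e']; exact e)
  rw [eg]
  exact hmul (hmul (hB _ (Subgroup.mem_subgroupOf.2 hb))
    (hmul (hH _ (Subgroup.mem_subgroupOf.2 hh)) (hw L'))) (hB _ (Subgroup.mem_subgroupOf.2 hb'))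

theorem stMat_U (G : Geo D) (w v u : UG F S) [Decidable (w * u = v)] :
    S.stMat (w : D.group F) v u = if w * u = v then 1 else 0 := by
  rw [stMat, Matrix.of_apply, ← S.gvec_U G]
  rfl

set_option maxHeartbeats 800000 in
/-- The lattice as a matrix representation. -/
theorem exists_stHom (G : Geo D) [Fintype (UG F S)] [DecidableEq (UG F S)] :
    ∃ A : D.group F →* Matrix (UG F S) (UG F S) ℤ, ∀ g, A g = S.stMat g := by
  have hcoord : ∀ g u x, gvec (S.bnPair F) (g * (u : UG F S)) x =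
      ∑ v, S.stMat g v u * gvec (S.bnPair F) (v : D.group F) x := by
    intro g u x
    obtain ⟨a, ha⟩ := S.gvec_span G g u
    rw [ha]
    refine Finset.sum_congr rfl fun v _ => ?_
    congr 1
    rw [stMat, Matrix.of_apply, ha, Finset.mul_sum, Finset.sum_eq_single v]
    · rw [mul_left_comm, S.gvec_U G, if_pos rfl, mul_one]
    · intro w _ hw
      rw [mul_left_comm, S.gvec_U G, if_neg hw, mul_zero]
    · simp
  refine ⟨{ toFun := S.stMat
            map_one' := ?_
            map_mul' := fun g g' => ?_ }, fun g => rfl⟩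
  · ext v u
    rw [← OneMemClass.coe_one (UG F S), S.stMat_U G, Matrix.one_apply]
    exact if_congr (by rw [one_mul, eq_comm]) rfl rfl
  ext v u
  rw [Matrix.mul_apply]
  show S.topSign F * gvec _ (g * g' * u) _ = ∑ w, S.stMat g v w * S.stMat g' w u
  rw [mul_assoc, gvec_mul, hcoord g' u, Finset.mul_sum]
  refine Finset.sum_congr rfl fun w _ => ?_
  rw [← gvec_mul, stMat, stMat, Matrix.of_apply, Matrix.of_apply]
  ring

/-- On `B` the trace is the alternating sum. -/
theorem trace_borel (G : Geo D) [Fintype (UG F S)] {b : D.group F} (hb : b ∈ (S.bnPair F).B) :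
    (S.stMat b).trace = alt (S.bnPair F) (S.fS F) Finset.univ b := by
  classical
  haveI := finite_group (D := D) (F := F)
  rw [alt_eq _ _ _ hb]
  have hsq : S.topSign F * S.topSign F = 1 := by
    rw [topSign, ← pow_add, ← two_mul, pow_mul]; simp
  have hd : ∀ v : UG F S, S.stMat b v v =
      if b • (v : D.group F) • S.topPt F = (v : D.group F) • S.topPt F then 1 else 0 := by
    intro v
    rw [stMat, Matrix.of_apply, gvec]
    split_ifs with h
    · rw [_root_.mul_inv_rev, mul_smul, inv_smul_eq_iff.2 h.symm, inv_smul_smul, topPt, evec_pt]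
      exact hsq
    · rw [evec_eq_zero, mul_zero]
      intro e
      apply h
      have hm : (b * (v : D.group F))⁻¹ * v ∈ (S.bnPair F).B :=
        mul_mem (inv_mem (mul_mem hb (S.UG_le_B v.2))) (S.UG_le_B v.2)
      rw [← mul_smul] at e
      rw [tyQ_smul _ hm, topPt, tyQ_pt] at e
      have e1 := congrArg (fun z => (b * (v : D.group F)) • z) e
      simp only [smul_smul, mul_inv_cancel_left] at e1
      rw [smul_smul]
      exact e1.symm
  rw [Matrix.trace]
  simp only [Matrix.diag_apply]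
  rw [Finset.sum_congr rfl fun v _ => hd v, Finset.sum_boole, ← Fintype.card_subtype,
    ← Nat.card_eq_fintype_card]
  congr 1
  have hty : ∀ v : UG F S, tyQ (S.bnPair F) ((v : D.group F) • S.topPt F) = w0 (S.bnPair F) (S.fS F) Finset.univ := fun v => by
    rw [tyQ_smul _ (S.UG_le_B v.2), topPt, tyQ_pt]
  let g : {v : UG F S // b • (v : D.group F) • S.topPt F = (v : D.group F) • S.topPt F} →
      {x : Top (S.bnPair F) (S.fS F) Finset.univ // b • x.1 = x.1} := fun v => ⟨⟨_, hty v.1⟩, v.2⟩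
  refine Nat.card_eq_of_bijective g ⟨fun v v' h => ?_, fun x => ?_⟩
  · have e : (v.1 : D.group F) • S.topPt F = (v'.1 : D.group F) • S.topPt F :=
      congrArg (fun y => y.1.1) h
    have hm : (v.1 : D.group F)⁻¹ * v'.1 ∈ UG F S := mul_mem (inv_mem v.1.2) v'.1.2
    have h1 := (S.fix_top G Finset.univ _ hm ⟨S.topPt F, tyQ_pt _ _⟩).1 (by
      show ((v.1 : D.group F)⁻¹ * v'.1) • S.topPt F = S.topPt F
      rw [mul_smul, ← e, inv_smul_smul])
    rw [(S.radical_univ).resolve_right (not_not.2 G), Subgroup.mem_bot, inv_mul_eq_one] at h1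
    exact Subtype.ext (Subtype.ext h1)
  · obtain ⟨n, hn, hne⟩ := exists_mk (S.bnPair F) (w0 (S.bnPair F) (S.fS F) Finset.univ)
    obtain ⟨u, hu, hx⟩ := S.top_orbit hne x.1
    have e : (u : D.group F) • S.topPt F = x.1.1 := by
      rw [hx, topPt, ← hne, pt_mk]
    exact ⟨⟨⟨u, hu⟩, by rw [e]; exact x.2⟩, Subtype.ext (Subtype.ext e)⟩

set_option maxHeartbeats 1600000 in
/-- The main statement. -/
theorem steinberg_main (G : Geo D) :
    Cfsg.IsIrrCharacter (D.group F) (D.steinbergCharacter F) ∧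
      ∀ (p : ℕ) [Fact p.Prime] [CharP F p] (g : D.group F), p ∣ orderOf g →
        D.steinbergCharacter F g = 0 := by
  classical
  haveI := finite_group (D := D) (F := F)
  haveI := Fintype.ofFinite (D.group F)
  haveI := Fintype.ofFinite (UG F S)
  set P := S.bnPair F
  obtain ⟨A, hA⟩ := S.exists_stHom (F := F) G
  let ρ : Representation ℂ (D.group F) (UG F S → ℂ) :=
    (Matrix.toLinAlgEquiv' : Matrix (UG F S) (UG F S) ℂ ≃ₐ[ℂ] ((UG F S → ℂ) →ₗ[ℂ] (UG F S → ℂ))).toMonoidHom.comp
      ((Int.castRingHom ℂ).mapMatrix.toMonoidHom.comp A)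
  have hX : Cfsg.IsCharacter (D.group F) fun g => ((A g).trace : ℂ) := by
    have h := CfsgLib.CharBasics.isCharacter_rep ρ
    convert h using 1
    funext g
    show ((A g).trace : ℂ) = LinearMap.trace ℂ _ (ρ g)
    show _ = LinearMap.trace ℂ _ (Matrix.toLin' ((A g).map (Int.castRingHom ℂ)))
    rw [Matrix.trace_toLin'_eq]
    simp [Matrix.trace]
  have htr : ∀ b ∈ P.B, (A b).trace = alt P (S.fS F) Finset.univ b := fun b hb => by
    rw [hA]; exact S.trace_borel G hb
  have hmain := alt_irr_and_eq P (S.fS F) S.par_univ (fun g => (A g).trace) hX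
    (htr 1 (one_mem _)) (by
    intro K _
    rcases K.eq_empty_or_nonempty with rfl | ⟨i, hi⟩
    · rw [if_pos rfl]
      have h := sum_alt_par P (S.fS F) S.par_univ ∅
      rw [if_pos rfl] at h
      rw [← h]
      refine Finset.sum_congr rfl fun g hg => htr g ?_
      rw [← par_empty P (S.fS F)]
      exact (Finset.mem_filter.1 hg).2
    rw [if_neg (Finset.nonempty_iff_ne_empty.1 ⟨i, hi⟩), ← Matrix.trace_sum]
    set M := ∑ g with g ∈ par P (S.fS F) K, A g with hM
    have hinv : ∀ g₀ ∈ par P (S.fS F) K, A g₀ * M = M := by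
      intro g₀ hg₀
      rw [hM, Finset.mul_sum]
      refine Finset.sum_nbij' (fun g => g₀ * g) (fun g => g₀⁻¹ * g) ?_ ?_ ?_ ?_ ?_
      · intro g hg; simp only [Finset.mem_filter, Finset.mem_univ, true_and, Finset.mem_coe] at hg ⊢
        exact mul_mem hg₀ hg
      · intro g hg; simp only [Finset.mem_filter, Finset.mem_univ, true_and, Finset.mem_coe] at hg ⊢
        exact mul_mem (inv_mem hg₀) hg
      · intro g _; simp
      · intro g _; simp
      · intro g _; rw [map_mul]
    have hrow : ∀ v u, M v u = M 1 u := by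
      intro v u
      conv_lhs => rw [← hinv (v : D.group F) ((le_sup_left : P.B ≤ par P (S.fS F) K) (S.UG_le_B v.2))]
      rw [Matrix.mul_apply, Finset.sum_eq_single 1]
      · rw [hA, S.stMat_U G, if_pos (mul_one v), one_mul]
      · intro w _ hw
        rw [hA, S.stMat_U G, if_neg (fun h => hw (by simpa using h)), zero_mul]
      · simp
    have hneg : ∑ w : UG F S, A (S.nG F i) 1 w ≤ 0 := by
      refine Finset.sum_nonpos fun w _ => ?_
      rw [hA, stMat, Matrix.of_apply, gvec, OneMemClass.coe_one, one_smul, _root_.mul_inv_rev,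
        mul_smul]
      set z := (S.nG F i)⁻¹ • S.topPt F with hz
      have hzpt : z = pt P (σ P (S.fS F i) * w0 P (S.fS F) Finset.univ) := by
        rw [hz, inv_smul_eq_iff]
        show _ = ((S.fS F i : D.group F)) • _
        rw [smul_pt P (P.subset (S.fS F i).2) _]
        show _ = pt P (σ P (S.fS F i) * _)
        rw [σ_cancel]
        rfl
      have hty : tyQ P ((w : D.group F)⁻¹ • z) = σ P (S.fS F i) * w0 P (S.fS F) Finset.univ := by
        rw [tyQ_smul _ (inv_mem (S.UG_le_B w.2)), hzpt, tyQ_pt]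
      rw [evec, hty]
      split_ifs with h
      · rw [topSign, neg_one_pow_σ]
        have : (-1 : ℤ) ^ len P (w0 P (S.fS F) Finset.univ) *
            (-1 : ℤ) ^ len P (w0 P (S.fS F) Finset.univ) = 1 := by
          rw [← pow_add, ← two_mul, pow_mul]; simp
        nlinarith
      · simp
    have hM0 : ∀ u, M 1 u = 0 := by
      intro u
      have h := congrFun (congrFun (hinv (S.nG F i) ((le_sup_right : _ ≤ par P (S.fS F) K)
        (Subgroup.subset_closure ⟨i, hi, rfl⟩))) 1) u
      rw [Matrix.mul_apply, Finset.sum_congr rfl fun w _ => by rw [hrow w u], ← Finset.sum_mul] at h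
      have h2 : (∑ w : UG F S, A (S.nG F i) 1 w - 1) * M 1 u = 0 := by linarith
      exact (mul_eq_zero.1 h2).resolve_left (by omega)
    refine Finset.sum_eq_zero fun v _ => ?_
    show M v v = 0
    rw [hrow, hM0])
  refine ⟨?_, fun p _ _ g hg => ?_⟩
  · rw [funext fun g => S.steinberg_eq g]
    exact hmain.1
  rw [S.steinberg_eq, hmain.2, trace_eq_zero p A (Matrix.single 1 1 1) (UG F S)
    (S.not_dvd_index_pos p) ?_ g hg, Int.cast_zero]
  ext v v'
  rw [Matrix.sum_apply, Finset.sum_eq_single v, Matrix.one_apply]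
  · rw [Matrix.mul_apply, Finset.sum_eq_single 1]
    · rw [Matrix.mul_apply, Finset.sum_eq_single 1]
      · rw [Matrix.single_apply_same, mul_one, hA, S.stMat_U G, if_pos (mul_one v), one_mul, hA,
          ← Subgroup.coe_inv, S.stMat_U G]
        exact if_congr (by rw [inv_mul_eq_one]) rfl rfl
      · intro w _ hw; rw [Matrix.single_apply_of_ne _ _ _ _ _ (by simp [Ne.symm hw]), mul_zero]
      · simp
    · intro w _ hw
      rw [Matrix.mul_apply, Finset.sum_eq_zero, zero_mul]
      intro k _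
      rw [Matrix.single_apply_of_ne _ _ _ _ _ (by simp [Ne.symm hw]), mul_zero]
    · simp
  · intro u _ hu
    rw [Matrix.mul_apply, Finset.sum_eq_zero]
    intro k _
    rw [Matrix.mul_apply, Finset.sum_eq_zero, zero_mul]
    intro w _
    by_cases hw : w = 1
    · subst hw
      rw [hA, S.stMat_U G, if_neg (fun h => hu (by simpa using h)), zero_mul]
    · rw [Matrix.single_apply_of_ne _ _ _ _ _ (by simp [Ne.symm hw]), mul_zero]
  · simp

end Sys

end CfsgLib.Chev
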