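import Cfsg.Agent.Chev.SteinbergModule
import Cfsg.Agent.Chev.CurtisRichen.Ops
import Cfsg.Agent.BNSteinberg.EllipticValue
import Cfsg.Agent.CharBasics.Central
import Cfsg.Agent.OddChar.DadeBasic

/-!
# The values of the Steinberg character at the semisimple elements

At an element of order prime to `p` the Steinberg character is, up to sign, the order of a Sylow
`p`-subgroup of the centralizer.
-/

set_option autoImplicit false
set_option linter.unusedSectionVars false
set_option linter.style.haveILetI false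

namespace CfsgLib.CharBasics

/-- A character of degree divisible by the full `p`-part of the order takes at `g` only integer values
divisible by the `p`-part of the order of the centralizer of `g`. -/
theorem centralizer_part_dvd {G : Type*} [Group G] [Finite G] {χ : G → ℂ}
    (h : Cfsg.IsIrrCharacter G χ) {p : ℕ} [hp : Fact p.Prime]
    (hd : p ^ (Nat.card G).factorization p ∣ Cfsg.charDegree χ) (g : G) {n : ℤ} (hn : χ g = n) :
    p ^ (Nat.card (Subgroup.centralizer ({g} : Set G))).factorization p ∣ n.natAbs := by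
  set C := Subgroup.centralizer ({g} : Set G)
  rcases eq_or_ne n 0 with rfl | hn0
  · simp
  have hint : IsIntegral ℤ (((C.index * n.natAbs : ℕ) : ℂ) / (Cfsg.charDegree χ : ℂ)) := by
    have h1 := isIntegral_centralChar h g
    rw [Cfsg.centralChar, hn, apply_one (isCharacter_of_irr h)] at h1
    rcases Int.natAbs_eq n with e | e <;> rw [e] at h1
    · rw [Nat.cast_mul]
      rwa [Int.cast_natCast] at h1
    · have h2 := h1.neg
      rw [Nat.cast_mul]
      rwa [Int.cast_neg, Int.cast_natCast, mul_neg, neg_div, neg_neg] at h2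
  have hdvd := hd.trans (nat_dvd_of_isIntegral _ _ (charDegree_pos h).ne' hint)
  have hi : C.index ≠ 0 := Subgroup.index_ne_zero_of_finite
  have hn' : n.natAbs ≠ 0 := Int.natAbs_ne_zero.2 hn0
  rw [hp.out.pow_dvd_iff_le_factorization hn']
  have h3 := (hp.out.pow_dvd_iff_le_factorization (Nat.mul_ne_zero hi hn')).1 hdvd
  rw [← C.card_mul_index, Nat.factorization_mul Nat.card_pos.ne' hi, Nat.factorization_mul hi hn',
    Finsupp.add_apply, Finsupp.add_apply] at h3
  omega

end CfsgLib.CharBasics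

namespace CfsgLib.Chev.Sys

open Cfsg Cfsg.Lie
open CfsgLib.BNPair CfsgLib.BNSteinberg

universe u

variable {D : ChevalleyDatum} (S : Sys.{u} D) {F : Type u} [Field F]

include S

theorem fS_injective : Function.Injective (S.fS F) := by
  intro i j e
  have e' : S.nU (D.simple i) (1 : F) = S.nU (D.simple j) 1 :=
    congrArg (fun x : D.group F => (x : GL D.Idx F)) (congrArg Subtype.val e)
  exact Fin.ext (S.eq_of_nU_mem_diag (F := F) i.2 j.2 (by
    rw [e', inv_mul_cancel]
    exact one_mem _))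

/-- Without descent at `i`, `p_i` is sent to a positive root. -/
theorem pos_of_not_desc {m : D.group F} (hm : m ∈ (S.bnPair F).N) {w : Equiv.Perm (Fin D.nroots)}
    (hwW : w ∈ S.weyl) (hw : S.Acts (m : GL D.Idx F) w) (i : Fin D.rank)
    (h : ¬ IsDesc (S.bnPair F) (S.fS F) (CfsgLib.BNPair.mk (S.bnPair F) m hm) i) :
    S.Pos (w (S.sr i)) := by
  by_contra hneg
  set M := CfsgLib.BNPair.mk (S.bnPair F) m hm with hM
  obtain ⟨R, -, hR⟩ := CfsgLib.BNPair.exists_reduced (S.bnPair F) (M * σ (S.bnPair F) (S.fS F i))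
  obtain ⟨L, rfl⟩ := S.exists_lift R
  obtain ⟨hn, e, e'⟩ := S.wd_word (F := F) L
  have hσ : σ (S.bnPair F) (S.fS F i) =
    CfsgLib.BNPair.mk (S.bnPair F) (S.nG F i) ((S.bnPair F).subset (S.fS F i).2) := rfl
  have hperm : S.wprod (L.map fun j : Fin D.rank => (j : ℕ)) = w * S.refl i :=
    S.acts_congr (e.trans (by rw [hR, hσ, hM, mk_mul]))
      (e' ▸ S.acts_nw (word_lt L)) (by rw [Subgroup.coe_mul, coe_nG]; exact S.acts_mul hw (S.acts_nU i.2))
  have hnd : ¬ IsDesc (S.bnPair F) (S.fS F) (wd (S.bnPair F) (L.map (S.fS F))) i := fun hd => by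
    have h1 := S.neg_of_desc hd
    rw [hperm] at h1
    exact not_le.2 h1 ((S.pos_mul_refl hwW i).2 hneg)
  rw [hR, IsDesc, mul_assoc, σ_sq, mul_one] at hnd
  have := len_mul_σ_ne (S.bnPair F) (S.fS F i) M
  unfold IsDesc at h
  omega

/-- `B = R_J (B ∩ ⁿB)` when `n` has no descent in `J`. -/
theorem borel_split (G : Geo D) (J : Finset (Fin D.rank)) (n : D.group F)
    (hn : n ∈ (S.bnPair F).N)
    (hJ : ∀ i ∈ J, ¬ IsDesc (S.bnPair F) (S.fS F) (CfsgLib.BNPair.mk (S.bnPair F) n hn)⁻¹ i)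
    (b : D.group F) (hb : b ∈ (S.bnPair F).B) :
    ∃ r ∈ radIn F J, n⁻¹ * (r⁻¹ * b) * n ∈ (S.bnPair F).B := by
  obtain ⟨u, hu, h, hh, rfl⟩ := S.mem_borel_iff' hb
  have hu' := Subgroup.mem_subgroupOf.1 hu
  rw [S.posUnipotent_eq] at hu'
  obtain ⟨a, ha, c, hc, e⟩ :=
    S.exists_split (fun r => ¬ S.InJ (↑(natSet J) : Set ℕ) r) le_rfl hu'
  refine ⟨⟨a, S.pos_le_group (S.genBy_le_pos _ ha)⟩, ?_, ?_⟩
  · rw [radIn, Subgroup.mem_subgroupOf, S.unipotentRadical_eq G]
    exact ha
  obtain ⟨w, hwW, hw⟩ := S.exists_acts (g := ((n⁻¹ : D.group F) : GL D.Idx F))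
    (Subgroup.mem_subgroupOf.1 (inv_mem hn))
  have hle : S.genBy F (fun r => ¬¬ S.InJ (↑(natSet J) : Set ℕ) r) ≤
      (D.posUnipotent F).comap (MulAut.conj ((n⁻¹ : D.group F) : GL D.Idx F)).toMonoidHom := by
    refine S.genBy_le fun r h1 h2 h3 t => ?_
    obtain ⟨c, hc⟩ := hw ⟨r, h2⟩
    show ((n⁻¹ : D.group F) : GL D.Idx F) * S.xU r t * ((n⁻¹ : D.group F) : GL D.Idx F)⁻¹ ∈ D.posUnipotent F
    rw [hc t]
    refine S.xU_mem_posUnipotent (S.pos_of_support hwW (s := ⟨r, h2⟩) h1 fun i hi => ?_) (Fin.is_lt _) _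
    refine S.pos_of_not_desc (inv_mem hn) hwW hw i ?_
    rw [← mk_inv (S.bnPair F) hn]
    refine hJ i ?_
    by_contra hiJ
    refine hi ((not_not.1 h3).2 i i.2 fun hm => hiJ ?_)
    obtain ⟨j, hj, e⟩ := mem_natSet_iff.1 hm
    rwa [← Fin.ext e]
  have h1 := Subgroup.mem_subgroupOf.1 (S.diag_fix hn hh)
  have h2 : ((n⁻¹ : D.group F) : GL D.Idx F) * c * ((n⁻¹ : D.group F) : GL D.Idx F)⁻¹ ∈ D.posUnipotent F :=
    hle hc
  show ((n⁻¹ * ((⟨a, S.pos_le_group (S.genBy_le_pos _ ha)⟩ : D.group F)⁻¹ * (u * h)) * n : D.group F) :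
    GL D.Idx F) ∈ D.borelSubgroup F
  push_cast at h1 h2 ⊢
  rw [inv_inv] at h2
  rw [e, show (n : GL D.Idx F)⁻¹ * (a⁻¹ * (a * c * (h : GL D.Idx F))) * (n : GL D.Idx F) =
    ((n : GL D.Idx F)⁻¹ * c * (n : GL D.Idx F)) * ((n : GL D.Idx F)⁻¹ * (h : GL D.Idx F) * (n : GL D.Idx F)) by group]
  exact mul_mem (Subgroup.mem_sup_left h2) h1

variable [Fintype F]

omit S in
theorem centralizer_card_conj {G : Type*} [Group G] (t g : G) :
    Nat.card (Subgroup.centralizer ({t * g * t⁻¹} : Set G)) =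
      Nat.card (Subgroup.centralizer ({g} : Set G)) :=
  (Nat.card_congr (Equiv.subtypeEquiv (MulAut.conj t).toEquiv fun x => by
    simp only [Subgroup.mem_centralizer_singleton_iff, MulEquiv.toEquiv_eq_coe, MulEquiv.coe_toEquiv,
      MulAut.conj_apply]
    constructor
    · intro e
      rw [show t * x * t⁻¹ * (t * g * t⁻¹) = t * (x * g) * t⁻¹ by group, e]
      group
    · intro e
      have := congrArg (fun y => t⁻¹ * y * t) e
      simpa [mul_assoc] using this)).symm

/-- `St(g) = ±|C(g)|_p`. -/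
theorem steinberg_value (Gg : Geo D) (p : ℕ) [hp : Fact p.Prime] [CharP F p] (g : D.group F)
    (hg : ¬ p ∣ orderOf g) :
    ∃ ε : ℤ, (ε = 1 ∨ ε = -1) ∧ D.steinbergCharacter F g =
      ((ε * (p ^ (Nat.card (Subgroup.centralizer ({g} : Set (D.group F)))).factorization p : ℕ) : ℤ) : ℂ) := by
  classical
  haveI := finite_group (D := D) (F := F)
  haveI := S.finite_W (F := F)
  obtain ⟨hirr, hzero⟩ := S.steinberg_main (F := F) Gg
  have hchar := CfsgLib.CharBasics.isCharacter_of_irr hirr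
  -- a conjugate elliptic in a parabolic
  have hex : ∃ J, J ∈ Finset.univ.filter fun J : Finset (Fin D.rank) =>
      ∃ t, t * g * t⁻¹ ∈ par (S.bnPair F) (S.fS F) J :=
    ⟨Finset.univ, Finset.mem_filter.2 ⟨Finset.mem_univ _, 1, by rw [S.par_univ]; trivial⟩⟩
  obtain ⟨J, hJ, hmin⟩ := Finset.exists_min_image _ Finset.card hex
  obtain ⟨-, t, ht⟩ := Finset.mem_filter.1 hJ
  rw [CfsgLib.CharBasics.apply_isConj hchar (isConj_iff.2 ⟨t, rfl⟩ : IsConj g (t * g * t⁻¹)),
    ← centralizer_card_conj t g]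
  set x := t * g * t⁻¹ with hx
  have hreg : ¬ p ∣ orderOf x := by
    rwa [show orderOf x = orderOf g from
      orderOf_injective (MulAut.conj t).toMonoidHom (MulAut.conj t).injective g]
  have hell : ∀ J', J' ⊂ J → ∀ s ∈ par (S.bnPair F) (S.fS F) J, s * x * s⁻¹ ∉ par (S.bnPair F) (S.fS F) J' := by
    intro J' hJ' s _ hs
    refine not_le.2 (Finset.card_lt_card hJ') (hmin J' (Finset.mem_filter.2 ⟨Finset.mem_univ _, s * t, ?_⟩))
    rwa [show s * t * g * (s * t)⁻¹ = s * x * s⁻¹ by rw [hx]; group]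
  let R : Subgroup (D.group F) := radIn F J
  haveI := Fintype.ofFinite R
  obtain ⟨ε, hε, hsum⟩ := sum_alt_coset (S.bnPair F) (S.fS F) S.par_univ S.fS_injective J R
    (fun r hr => S.UG_le_B (S.rad_le_par Gg J hr)) (S.rad_conj Gg J) (S.borel_split Gg J) x ht hell
  refine ⟨ε, hε, ?_⟩
  -- `R` is a `p`-group
  obtain ⟨e, -, he⟩ := FiniteField.card F p
  have hU : Nat.card (UG F S) = p ^ ((e : ℕ) * (D.nroots / 2)) := by
    rw [Nat.card_congr (Subgroup.subgroupOfEquivOfLe S.pos_le_group).toEquiv, S.card_pos,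
      Nat.card_eq_fintype_card, he, pow_mul]
  obtain ⟨a, -, haR⟩ := (Nat.dvd_prime_pow hp.out).1 (hU ▸ Subgroup.card_dvd_of_le (S.rad_le_par Gg J))
  have hxn : ∀ r ∈ R, x * r * x⁻¹ ∈ R := fun r hr => S.rad_conj Gg J x ht r hr
  have hxn' : ∀ r ∈ R, x⁻¹ * r * x ∈ R := fun r hr => by
    have := S.rad_conj Gg J x⁻¹ (inv_mem ht) r hr
    rwa [inv_inv] at this
  have hxnorm : x ∈ Subgroup.normalizer (R : Set (D.group F)) := Subgroup.mem_normalizer_iff.2 fun r =>
    ⟨hxn r, fun h => by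
      have := hxn' _ h
      rwa [show x⁻¹ * (x * r * x⁻¹) * x = r by group] at this⟩
  have hcop : Nat.Coprime (orderOf x) (Nat.card R) := by
    rw [haR]
    exact Nat.Coprime.pow_right _ (hp.out.coprime_iff_not_dvd.2 hreg).symm
  -- the map onto the part of the coset conjugate to `x`
  let φ : R → R := fun y => ⟨x⁻¹ * (y : D.group F) * x * (y : D.group F)⁻¹,
    mul_mem (hxn' _ y.2) (inv_mem y.2)⟩
  set n := alt (S.bnPair F) (S.fS F) Finset.univ x with hn
  have halt : ∀ r : R, alt (S.bnPair F) (S.fS F) Finset.univ (x * (r : D.group F)) =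
      if r ∈ Finset.univ.image φ then n else 0 := by
    intro r
    apply Int.cast_injective (α := ℂ)
    rw [apply_ite ((↑) : ℤ → ℂ), Int.cast_zero, hn, ← S.steinberg_eq, ← S.steinberg_eq]
    split_ifs with h
    · obtain ⟨y, -, rfl⟩ := Finset.mem_image.1 h
      exact (CfsgLib.CharBasics.apply_isConj hchar (isConj_iff.2 ⟨y, by simp [φ, mul_assoc]⟩)).symm
    · obtain ⟨y, hy, c, hc, hcx, hconj⟩ := CfsgLib.OddChar.coprime_coset_conj R x hxnorm hcop
        (x * r * x⁻¹) (hxn _ r.2)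
      rw [inv_mul_cancel_right] at hconj
      rw [CfsgLib.CharBasics.apply_isConj hchar (isConj_iff.2 ⟨y, hconj⟩)]
      have hc1 : c ≠ 1 := fun hc1 => h (Finset.mem_image.2 ⟨⟨y⁻¹, inv_mem hy⟩, Finset.mem_univ _, by
        refine Subtype.ext ?_
        show x⁻¹ * y⁻¹ * x * y⁻¹⁻¹ = r
        rw [hc1, one_mul] at hconj
        conv_lhs => enter [1, 2]; rw [← hconj]
        group⟩)
      refine hzero p (c * x) ?_
      have hoc : orderOf c ∣ p ^ a := haR ▸ Subgroup.orderOf_dvd_natCard R hc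
      obtain ⟨b, -, hb⟩ := (Nat.dvd_prime_pow hp.out).1 hoc
      rw [(show Commute c x from hcx).orderOf_mul_eq_mul_orderOf_of_coprime
        (by rw [hb]; exact Nat.Coprime.pow_left _ (hp.out.coprime_iff_not_dvd.2 hreg)), hb]
      refine Dvd.dvd.mul_right (dvd_pow_self p ?_) _
      rintro rfl
      exact hc1 (orderOf_eq_one_iff.1 (by rw [hb, pow_zero]))
  set C := R ⊓ Subgroup.centralizer ({x} : Set (D.group F))
  have hfib : ∀ r ∈ Finset.univ.image φ, (Finset.univ.filter fun y => φ y = r).card = Nat.card C := by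
    intro r hr
    obtain ⟨y₀, -, rfl⟩ := Finset.mem_image.1 hr
    rw [← Fintype.card_subtype, ← Nat.card_eq_fintype_card]
    refine Nat.card_congr
      { toFun := fun y => ⟨(y₀ : D.group F)⁻¹ * y.1, Subgroup.mem_inf.2 ⟨mul_mem (inv_mem y₀.2) y.1.2,
          Subgroup.mem_centralizer_singleton_iff.2 ?_⟩⟩
        invFun := fun c => ⟨⟨(y₀ : D.group F) * c, mul_mem y₀.2 (Subgroup.mem_inf.1 c.2).1⟩, ?_⟩
        left_inv := fun y => Subtype.ext (Subtype.ext (mul_inv_cancel_left _ _))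
        right_inv := fun c => Subtype.ext (inv_mul_cancel_left _ _) }
    · have h := congrArg (fun z : R => x * (z : D.group F)) y.2
      simp only [φ, mul_assoc, mul_inv_cancel_left] at h
      calc (y₀ : D.group F)⁻¹ * y.1 * x
          = (y₀ : D.group F)⁻¹ * ((y.1 : D.group F) * (x * (y.1 : D.group F)⁻¹)) * y.1 := by group
        _ = (y₀ : D.group F)⁻¹ * ((y₀ : D.group F) * (x * (y₀ : D.group F)⁻¹)) * y.1 := by rw [h]
        _ = x * ((y₀ : D.group F)⁻¹ * y.1) := by group
    · refine Subtype.ext ?_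
      have hc := Subgroup.mem_centralizer_singleton_iff.1 (Subgroup.mem_inf.1 c.2).2
      show x⁻¹ * ((y₀ : D.group F) * c) * x * ((y₀ : D.group F) * c)⁻¹ = x⁻¹ * y₀ * x * (y₀ : D.group F)⁻¹
      rw [show x⁻¹ * ((y₀ : D.group F) * c) * x = x⁻¹ * y₀ * (c * x) by group, hc]
      group
  have hcard : Nat.card R = (Finset.univ.image φ).card * Nat.card C := by
    rw [Nat.card_eq_fintype_card, ← Finset.card_univ, Finset.card_eq_sum_card_image φ,
      Finset.sum_congr rfl hfib, Finset.sum_const, smul_eq_mul]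
  rw [Finset.sum_congr rfl fun r _ => halt r, Finset.sum_ite_mem, Finset.univ_inter, Finset.sum_const,
    nsmul_eq_mul] at hsum
  have hnC : n = ε * Nat.card C := by
    have h2 : (Nat.card R : ℤ) * n = (Nat.card R : ℤ) * (ε * Nat.card C) := by
      rw [hcard] at hsum ⊢
      push_cast at hsum ⊢
      linear_combination (Nat.card C : ℤ) * hsum
    exact mul_left_cancel₀ (Nat.cast_ne_zero.2 Nat.card_pos.ne') h2
  -- divisibility
  obtain ⟨k, -, hk⟩ := (Nat.dvd_prime_pow hp.out).1 (haR ▸ Subgroup.card_dvd_of_le (inf_le_left : C ≤ R))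
  have hd : p ^ (Nat.card (D.group F)).factorization p ∣ Cfsg.charDegree (D.steinbergCharacter F) := by
    have h1 : (Cfsg.charDegree (D.steinbergCharacter F) : ℂ) = ((Nat.card (UG F S) : ℕ) : ℂ) := by
      rw [← CfsgLib.CharBasics.apply_one hchar, S.steinberg_one Gg,
        Nat.card_congr (Subgroup.subgroupOfEquivOfLe S.pos_le_group).toEquiv, S.card_pos, Nat.cast_pow]
    rw [Nat.cast_inj.1 h1, ← (UG F S).card_mul_index, Nat.factorization_mul Nat.card_pos.ne'
      Subgroup.index_ne_zero_of_finite, Finsupp.add_apply,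
      Nat.factorization_eq_zero_of_not_dvd (S.not_dvd_index_pos p), add_zero, hU,
      hp.out.factorization_pow, Finsupp.single_eq_same]
  have h1 := CfsgLib.CharBasics.centralizer_part_dvd hirr hd x (n := n) (S.steinberg_eq x)
  have habs : n.natAbs = Nat.card C := by
    rcases hε with rfl | rfl <;> simp [hnC]
  rw [habs] at h1
  have h2 : Nat.card C ∣ p ^ (Nat.card (Subgroup.centralizer ({x} : Set (D.group F)))).factorization p := by
    rw [hk]
    exact Nat.pow_dvd_pow _ ((hp.out.pow_dvd_iff_le_factorization Nat.card_pos.ne').1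
      (hk ▸ Subgroup.card_dvd_of_le (inf_le_right : C ≤ Subgroup.centralizer ({x} : Set (D.group F)))))
  rw [S.steinberg_eq, ← hn, hnC, Nat.dvd_antisymm h2 h1]

end CfsgLib.Chev.Sys
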